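import Mathlib
import Cfsg.Agent.Lib.Helper16.P2pStmt
import Cfsg.Agent.Lib.Helper17.PrimeDegA

/-!
# S4707 piece DEG: the degrees of the characters `χ`, `θ` for a transitive, not doubly
transitive action on `2p` points (adapted from `Helper17.PrimeDegA.power_sums`)
-/

set_option autoImplicit false
set_option linter.style.haveILetI false

namespace Cfsg.Agent.Lib.Helper20.P2DEG

open Cfsg Subgroup MulAction
open Cfsg.Agent.Lib.CT.Orth Cfsg.Agent.Lib.CT.Wedderburn Cfsg.Agent.Lib.CT.NormOne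
open Cfsg.Agent.Lib.Helper17.ExcOrb Cfsg.Agent.Lib.Helper17.ExcMain
open Cfsg.Agent.Lib.Helper17.ExcCor Cfsg.Agent.Lib.Helper17.ExcTwo
open Cfsg.Agent.Lib.Helper17.PrimeDegA
open Cfsg.Agent.S0157
open Cfsg.Agent.Lib.Helper16.P2pStmt
open scoped ComplexConjugate

universe u w

theorem main : Deg.{u, w} := by
  intro G _ _ _ X _ _ hperf P p hp hp5 hP hX htrans hfpf hne2 n ε δ θ χ i₀ hE
  classical
  obtain ⟨hn, hθinj, hother, hε, hδ, hχT, hθχ, hθT, ⟨a, ha⟩, heq, hθvan, hθone, hform⟩ := hE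
  obtain ⟨y, hyP, hy1⟩ := exists_mem_ne_one P hp hP
  have hGne : (Nat.card G : ℂ) ≠ 0 := Nat.cast_ne_zero.mpr Nat.card_pos.ne'
  -- the permutation character
  have hπ : IsCharacter G (permChar G X) := permChar_isCharacter
  have hπcl := char_isClassFunction hπ
  have hπ0 : ∀ g u : G, u⁻¹ * g * u ∈ P → g ≠ 1 → permChar G X g = 0 := by
    intro g u hu hg1
    have h1 : permChar G X (u⁻¹ * g * u) = permChar G X g := by
      have := hπcl g u⁻¹
      rwa [inv_inv] at this
    rw [← h1]
    unfold permChar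
    rw [hfpf _ hu (fun h => hg1 (by
      have h2 : g = u * (u⁻¹ * g * u) * u⁻¹ := by group
      rw [h2, h]; group))]
    simp
  have hconst : ∀ F : G → ℂ, (∀ g u : G, u⁻¹ * g * u ∈ P → g ≠ 1 → F g = 0) →
      ∀ i j, classInner F (θ i : G → ℂ) = classInner F (θ j : G → ℂ) := by
    intro F hF i j
    unfold classInner
    congr 1
    apply Finset.sum_congr rfl
    intro g _
    by_cases hg : ∀ u : G, u⁻¹ * g * u ∉ P
    · rw [hθvan i j g hg]
    · push Not at hg
      obtain ⟨u, hu⟩ := hg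
      by_cases hg1 : g = 1
      · rw [hg1, hθone i j]
      · rw [hF g u hu hg1, zero_mul, zero_mul]
  -- degrees
  have hdθ : ∀ i, charDegree ((θ i : IrrCharacter G) : G → ℂ)
      = charDegree ((θ i₀ : IrrCharacter G) : G → ℂ) := by
    intro i
    unfold charDegree
    rw [hθone i i₀]
  have hdT : charDegree ((trivIrr G : IrrCharacter G) : G → ℂ) = 1 := by
    have h1 := deg_eq (trivIrr G)
    rw [trivIrr_apply] at h1
    exact_mod_cast h1.symm
  -- a general analysis of a character vanishing on the conjugates of `P ∖ 1`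
  have hgen : ∀ Φ : G → ℂ, IsCharacter G Φ →
      (∀ g u : G, u⁻¹ * g * u ∈ P → g ≠ 1 → Φ g = 0) →
      ∃ m : IrrCharacter G → ℕ, (∀ ψ : IrrCharacter G, classInner Φ (ψ : G → ℂ) = m ψ) ∧
        (∀ g, Φ g = ∑ ψ : IrrCharacter G, (m ψ : ℂ) * (ψ : G → ℂ) g) ∧
        ((m (trivIrr G) : ℤ) + δ * m χ - ε * m (θ i₀) = 0) ∧
        (∀ i, m (θ i) = m (θ i₀)) := by
    intro Φ hΦ hΦ0
    obtain ⟨m, hm, hexp⟩ := exists_mult_sum hΦ
    have hmθ : ∀ i j, m (θ i) = m (θ j) := by
      intro i j
      have h1 := hconst Φ hΦ0 i j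
      rw [hm, hm] at h1
      exact_mod_cast h1
    have hexp' : ∀ g, Φ g = ∑ ψ : IrrCharacter G, (m ψ : ℂ) * (ψ : G → ℂ) g := by
      intro g
      have h1 := congrFun hexp g
      rw [Finset.sum_apply] at h1
      simpa using h1
    refine ⟨m, hm, hexp', ?_, fun i => hmθ i i₀⟩
    have h1 := hform y hyP hy1 (fun ψ => (m ψ : ℂ)) (fun i j => by rw [hmθ i j])
    have h2 : ∑ ψ : IrrCharacter G, (m ψ : ℂ) * conj ((ψ : G → ℂ) y) = conj (Φ y) := by
      rw [hexp' y, map_sum]
      apply Finset.sum_congr rfl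
      intro ψ _
      rw [map_mul, Complex.conj_natCast]
    rw [h2, hΦ0 y 1 (by simpa using hyP) hy1, map_zero] at h1
    have h3 : ((m (trivIrr G) : ℤ) : ℂ) + (δ : ℂ) * ((m χ : ℤ) : ℂ)
        - (ε : ℂ) * ((m (θ i₀) : ℤ) : ℂ) = 0 := by
      push_cast
      rw [← h1]
    exact_mod_cast h3
  have hdeg : ∀ (Φ : G → ℂ) (m : IrrCharacter G → ℕ) (D : ℕ),
      (∀ g, Φ g = ∑ ψ : IrrCharacter G, (m ψ : ℂ) * (ψ : G → ℂ) g) → Φ 1 = D →
      ∑ ψ : IrrCharacter G, m ψ * charDegree (ψ : G → ℂ) = D := by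
    intro Φ m D hexp hD
    have h1 := hexp 1
    rw [hD] at h1
    have h2 : ((∑ ψ : IrrCharacter G, m ψ * charDegree (ψ : G → ℂ) : ℕ) : ℂ) = D := by
      rw [h1]
      push_cast
      apply Finset.sum_congr rfl
      intro ψ _
      rw [deg_eq]
    exact_mod_cast h2
  have hlow : ∀ m : IrrCharacter G → ℕ, (∀ i, m (θ i) = m (θ i₀)) →
      m (trivIrr G) + m χ * charDegree (χ : G → ℂ)
        + n * (m (θ i₀) * charDegree ((θ i₀ : IrrCharacter G) : G → ℂ))
        ≤ ∑ ψ : IrrCharacter G, m ψ * charDegree (ψ : G → ℂ) := by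
    intro m hmθ
    rw [sum_split θ hθinj (fun ψ => m ψ * charDegree (ψ : G → ℂ))]
    have h1 : ∑ i, m (θ i) * charDegree ((θ i : IrrCharacter G) : G → ℂ)
        = n * (m (θ i₀) * charDegree ((θ i₀ : IrrCharacter G) : G → ℂ)) := by
      rw [Finset.sum_congr rfl (fun i _ => by rw [hmθ i, hdθ i])]
      simp
    rw [h1]
    have h2 : m (trivIrr G) + m χ * charDegree (χ : G → ℂ)
        ≤ ∑ ψ : IrrCharacter G,
          (if ∃ i, θ i = ψ then 0 else m ψ * charDegree (ψ : G → ℂ)) := by
      calc m (trivIrr G) + m χ * charDegree (χ : G → ℂ)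
          = ∑ ψ ∈ ({trivIrr G, χ} : Finset (IrrCharacter G)),
              (if ∃ i, θ i = ψ then 0 else m ψ * charDegree (ψ : G → ℂ)) := by
            rw [Finset.sum_pair hχT.symm, if_neg (fun ⟨i, hi⟩ => hθT i hi),
              if_neg (fun ⟨i, hi⟩ => hθχ i hi), hdT, mul_one]
        _ ≤ _ := Finset.sum_le_sum_of_subset (Finset.subset_univ _)
    omega
  have hsumform : ∀ φ ψ : G → ℂ, ∑ g, φ g * conj (ψ g) = (Nat.card G : ℂ) * classInner φ ψ := by
    intro φ ψ
    unfold classInner
    rw [← mul_assoc, mul_inv_cancel₀ hGne, one_mul]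
  -- Step A: the permutation character
  obtain ⟨m, hm, hexp, hrel, hmθ⟩ := hgen (permChar G X) hπ hπ0
  have hπ1 : permChar G X 1 = ((2 * p : ℕ) : ℂ) := by
    unfold permChar
    rw [← hX]
    congr 1
    apply Nat.card_congr
    exact Equiv.subtypeUnivEquiv (fun x => by simp [MulAction.mem_fixedBy])
  have hsum := hdeg _ m (2 * p) hexp hπ1
  have hl := hlow m hmθ
  have hmT : m (trivIrr G) = 1 := by
    have h1 := hm (trivIrr G)
    have h2 : classInner (permChar G X) ((trivIrr G : IrrCharacter G) : G → ℂ) = 1 := by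
      unfold classInner
      simp only [trivIrr_apply, map_one, mul_one]
      rw [sum_permChar]
      have horb1 : Nat.card (Quotient (MulAction.orbitRel G X)) = 1 := by
        have hsub : Subsingleton (Quotient (MulAction.orbitRel G X)) :=
          (MulAction.pretransitive_iff_subsingleton_quotient G X).1 htrans
        haveI : Nonempty X := (Nat.card_pos_iff.mp (by rw [hX]; have := hp.pos; omega)).1
        have hne : Nonempty (Quotient (MulAction.orbitRel G X)) :=
          (inferInstance : Nonempty X).map (Quotient.mk _)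
        exact Nat.card_unique
      rw [horb1]
      simp [hGne]
    rw [h2] at h1
    exact_mod_cast h1.symm
  have hdχ1 := charDegree_ne_one_of_perfect hperf χ hχT
  have hdθ1 := charDegree_ne_one_of_perfect hperf (θ i₀) (hθT i₀)
  have hdχ0 := irr_charDegree_pos χ.2
  have hdθ0 := irr_charDegree_pos (θ i₀).2
  obtain ⟨dχ, hdχ⟩ : ∃ d : ℕ, d = charDegree (χ : G → ℂ) := ⟨_, rfl⟩
  obtain ⟨dθ, hdθ'⟩ : ∃ d : ℕ, d = charDegree ((θ i₀ : IrrCharacter G) : G → ℂ) := ⟨_, rfl⟩
  rw [← hdχ] at ha heq hdχ1 hdχ0 hl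
  rw [← hdθ'] at heq hdθ1 hdθ0 hl
  rw [← hdχ, ← hdθ']
  rw [hsum] at hl
  have hp5' : (5 : ℤ) ≤ (p : ℤ) := by exact_mod_cast hp5
  have hn2 : 2 ≤ n := by omega
  have hmθ0 : m (θ i₀) = 0 := by
    by_contra hne
    have h1 : 1 ≤ m (θ i₀) := Nat.one_le_iff_ne_zero.mpr hne
    have h2 : n * dθ ≤ n * (m (θ i₀) * dθ) :=
      Nat.mul_le_mul_left _ (Nat.le_mul_of_pos_left _ h1)
    have h3 : n * dθ ≤ 4 * n + 1 := by omega
    have h4 : dθ ≤ 4 := by
      by_contra h
      have h5 : n * 5 ≤ n * dθ := Nat.mul_le_mul_left _ (by omega)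
      omega
    rcases hδ with rfl | rfl <;> rcases hε with rfl | rfl
    · push_cast at heq ha
      rcases le_or_gt a 0 with h | h
      · have h6 : (p : ℤ) * a ≤ 0 := by nlinarith
        omega
      · have h6 : (p : ℤ) ≤ (p : ℤ) * a := by nlinarith
        omega
    · push_cast at heq; omega
    · push_cast at heq; omega
    · push_cast at heq ha
      obtain h | h | h : a ≤ 0 ∨ a = 1 ∨ 2 ≤ a := by omega
      · have h6 : (p : ℤ) * a ≤ 0 := by nlinarith
        omega
      · rw [h, mul_one] at ha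
        have hp5eq : p = 5 := by omega
        have hn2' : n = 2 := by omega
        have hdθ3 : dθ = 3 := by omega
        have hdχ4 : dχ = 4 := by omega
        rw [hn2', hdθ3, hdχ4, hmT] at hl
        rw [hmT] at hrel
        push_cast at hrel
        omega
      · have h6 : (p : ℤ) * 2 ≤ (p : ℤ) * a := by nlinarith
        omega
  obtain ⟨rfl, hmχ⟩ : δ = -1 ∧ m χ = 1 := by
    rw [hmT, hmθ0] at hrel
    push_cast at hrel
    rcases hδ with rfl | rfl
    · exfalso; omega
    · exact ⟨rfl, by omega⟩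
  rw [hmT, hmχ, hmθ0] at hl
  simp only [zero_mul, mul_zero, add_zero, one_mul] at hl
  have ha12 : a = 1 ∨ a = 2 := by
    have h2 : (1 : ℤ) ≤ a := by
      by_contra h
      have h3 : (p : ℤ) * a ≤ 0 := by nlinarith
      omega
    have h3 : a ≤ 2 := by
      by_contra h
      have h4 : (p : ℤ) * 3 ≤ (p : ℤ) * a := by nlinarith
      omega
    omega
  rcases ha12 with ha1 | ha2
  · rw [ha1] at ha
    have hdχp : dχ = p - 1 := by omega
    obtain ⟨rfl, hdθp⟩ : ε = -1 ∧ dθ = p - 2 := by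
      rw [hdχp] at heq
      rcases hε with rfl | rfl
      · exfalso
        push_cast [Nat.cast_sub hp.one_lt.le] at heq
        omega
      · refine ⟨rfl, ?_⟩
        push_cast [Nat.cast_sub hp.one_lt.le] at heq
        omega
    exact ⟨rfl, rfl, hdχp, hdθp⟩
  · exfalso
    rw [ha2] at ha
    have hdχp : dχ = 2 * p - 1 := by omega
    have hmzero : ∀ ψ, ψ ≠ trivIrr G → ψ ≠ χ → m ψ = 0 := by
      intro ψ h1 h2
      have h3 : ∑ ψ : IrrCharacter G, m ψ * charDegree (ψ : G → ℂ)
          = m (trivIrr G) * charDegree ((trivIrr G : IrrCharacter G) : G → ℂ)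
            + (m χ * charDegree (χ : G → ℂ)
              + ∑ ψ ∈ (Finset.univ.erase (trivIrr G)).erase χ,
                  m ψ * charDegree (ψ : G → ℂ)) := by
        rw [← Finset.add_sum_erase Finset.univ _ (Finset.mem_univ (trivIrr G)),
          ← Finset.add_sum_erase (Finset.univ.erase (trivIrr G)) _
            (Finset.mem_erase.mpr ⟨hχT, Finset.mem_univ _⟩)]
      rw [hsum, hmT, hdT, hmχ, ← hdχ, hdχp] at h3
      have h4 : ∑ ψ ∈ (Finset.univ.erase (trivIrr G)).erase χ, m ψ * charDegree (ψ : G → ℂ)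
          = 0 := by omega
      have h5 := (Finset.sum_eq_zero_iff.mp h4) ψ
        (Finset.mem_erase.mpr ⟨h2, Finset.mem_erase.mpr ⟨h1, Finset.mem_univ _⟩⟩)
      rcases Nat.mul_eq_zero.mp h5 with h | h
      · exact h
      · exact absurd h (irr_charDegree_pos ψ.2).ne'
    have hπχ : ∀ g, permChar G X g = 1 + (χ : G → ℂ) g := by
      intro g
      rw [hexp g, sum_two (trivIrr G) χ hχT _ (fun ψ h1 h2 => by rw [hmzero ψ h1 h2]; simp),
        hmT, hmχ, trivIrr_apply]
      simp
    have hA : ∑ g : G, permChar G X g * conj (((trivIrr G : IrrCharacter G) : G → ℂ) g)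
        = (Nat.card G : ℂ) := by
      rw [hsumform, hm, hmT]
      simp
    have hB : ∑ g : G, permChar G X g * conj ((χ : G → ℂ) g) = (Nat.card G : ℂ) := by
      rw [hsumform, hm, hmχ]
      simp
    have hconjπ : ∀ g, (1 : ℂ) + conj ((χ : G → ℂ) g) = permChar G X g := by
      intro g
      have h4 : (1 : ℂ) + conj ((χ : G → ℂ) g) = conj (permChar G X g) := by
        rw [hπχ g, map_add, map_one]
      rw [h4]
      unfold permChar
      rw [Complex.conj_natCast]
    have hS2C : ∑ g : G, permChar G X g * permChar G X g = 2 * (Nat.card G : ℂ) := by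
      calc ∑ g : G, permChar G X g * permChar G X g
          = ∑ g : G, (permChar G X g * conj (((trivIrr G : IrrCharacter G) : G → ℂ) g)
              + permChar G X g * conj ((χ : G → ℂ) g)) := by
            apply Finset.sum_congr rfl
            intro g _
            rw [trivIrr_apply, map_one, ← mul_add, hconjπ g]
        _ = (Nat.card G : ℂ) + (Nat.card G : ℂ) := by rw [Finset.sum_add_distrib, hA, hB]
        _ = 2 * (Nat.card G : ℂ) := by ring
    have hS2 : ∑ g : G, Nat.card (fixedBy X g) ^ 2 = 2 * Nat.card G := by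
      have h2 : ((∑ g : G, Nat.card (fixedBy X g) ^ 2 : ℕ) : ℂ)
          = ((2 * Nat.card G : ℕ) : ℂ) := by
        push_cast
        rw [← hS2C]
        apply Finset.sum_congr rfl
        intro g _
        unfold permChar
        ring
      exact_mod_cast h2
    exact hne2 hS2

end Cfsg.Agent.Lib.Helper20.P2DEG
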