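import Mathlib
import Cfsg.Agent.Lib.Helper16.P2pStmt
import Cfsg.Agent.Lib.Helper17.ExcTwo

/-!
# S4707 piece EXC: the table of `exceptional_two'` for `p ≥ 5`
(for `p = 5` the proof of `Helper17.ExcTwo.exceptional_two'` is redone from
`ExcMain.exceptional`; the sign `ε` may have to be replaced by `-ε`)
-/

set_option autoImplicit false
set_option linter.style.haveILetI false

namespace Cfsg.Agent.Lib.Helper20.P2EXC

open Cfsg Subgroup MulAction
open Cfsg.Agent.Lib.CT.FrobRec Cfsg.Agent.Lib.CT.LinChar Cfsg.Agent.Lib.CT.Orth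
open Cfsg.Agent.Lib.CT.Wedderburn Cfsg.Agent.Lib.Helper17.ExcOrb Cfsg.Agent.Lib.Helper17.ExcInd
open Cfsg.Agent.Lib.Helper17.ExcMain Cfsg.Agent.Lib.Helper17.ExcCor
open Cfsg.Agent.Lib.Helper17.ExcTwo
open Cfsg.Agent.Lib.Helper16.P2pStmt
open scoped ComplexConjugate

universe u

theorem main : Exc.{u} := by
  intro G _ _ _ P p hp hP hC hN hp5
  by_cases hp7 : 7 ≤ p
  · exact exceptional_two' P hp hP hC hN hp7
  classical
  have hp5eq : p = 5 := by
    have h6 : p ≠ 6 := by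
      intro h
      rw [h] at hp
      exact absurd hp (by norm_num)
    omega
  obtain ⟨n, ε, b, θ, M, i₀, hn, hε, hθinj, hMT, hθT, hMexc, hsq, hdeg, hval, hθvan, hθone,
    hform⟩ := exceptional P hp hP hC hN (by omega)
  have hnz : (n : ℤ) = 2 := by
    have : n = 2 := by omega
    exact_mod_cast this
  have hε2 : ε * ε = 1 := by rcases hε with h | h <;> rw [h] <;> norm_num
  obtain ⟨y, hyP, hy1⟩ := exists_mem_ne_one P hp hP
  have horth : ∑ ψ : IrrCharacter G, (ψ : G → ℂ) 1 * conj ((ψ : G → ℂ) y) = 0 :=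
    second_orthogonality_sum_of_not_isConj (1 : G) y
      (fun hc => hy1 (isConj_one_left.mp hc.symm))
  have hsplit : ∑ ψ, M ψ ^ 2 = 1 + ∑ ψ ∈ Finset.univ.erase (trivIrr G), M ψ ^ 2 := by
    rw [← Finset.add_sum_erase Finset.univ _ (Finset.mem_univ (trivIrr G)), hMT]
    norm_num
  have hrest : 0 ≤ ∑ ψ ∈ Finset.univ.erase (trivIrr G), M ψ ^ 2 :=
    Finset.sum_nonneg (fun ψ _ => sq_nonneg _)
  rw [hsplit] at hsq
  obtain ⟨c, hc⟩ : ∃ c : ℤ, c = ε * b := ⟨_, rfl⟩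
  have hbc : b = ε * c := by rw [hc, ← mul_assoc, hε2, one_mul]
  have hc2 : b ^ 2 = c ^ 2 := by
    rw [hbc, mul_pow, pow_two ε, hε2, one_mul]
  have hsq' : 1 + ∑ ψ ∈ Finset.univ.erase (trivIrr G), M ψ ^ 2 + (n : ℤ) * c ^ 2
      = 2 + 2 * c := by
    rw [← hc2, hc]
    push_cast at hsq
    linarith
  rw [hnz] at hsq'
  have hc1 : c ≤ 1 := by
    by_contra h
    have h' : 1 < c := not_le.mp h
    nlinarith
  have hc0 : 0 ≤ c := by
    by_contra h
    have h' : c < 0 := not_le.mp h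
    nlinarith [sq_nonneg c]
  have hθdeg : ∀ i j, (fun ψ : IrrCharacter G => (ψ : G → ℂ) 1) (θ i)
      = (fun ψ : IrrCharacter G => (ψ : G → ℂ) 1) (θ j) := fun i j => hθone i j
  have hcases : c = 0 ∨ c = 1 := by omega
  have hrest1 : ∑ ψ ∈ Finset.univ.erase (trivIrr G), M ψ ^ 2 = 1 := by
    rcases hcases with hc' | hc'
    · rw [hc'] at hsq'
      linarith
    · rw [hc'] at hsq'
      linarith
  have hε' : ε - n * b = 1 ∨ ε - n * b = -1 := by
    rcases hcases with hc' | hc'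
    · have hb0 : b = 0 := by rw [hbc, hc', mul_zero]
      rw [hb0, mul_zero, sub_zero]
      exact hε
    · have hbε : b = ε := by rw [hbc, hc', mul_one]
      rw [hbε, hnz]
      rcases hε with h | h <;> rw [h] <;> norm_num
  obtain ⟨χ, hχmem, hχ0⟩ := exists_ne_zero_of_sq_sum _ M (by rw [hrest1]; norm_num)
  have hχT : χ ≠ trivIrr G := (Finset.mem_erase.mp hχmem).1
  rw [← Finset.add_sum_erase _ _ hχmem] at hrest1
  have hrest2 : 0 ≤ ∑ ψ ∈ (Finset.univ.erase (trivIrr G)).erase χ, M ψ ^ 2 :=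
    Finset.sum_nonneg (fun ψ _ => sq_nonneg _)
  have hχsq : M χ ^ 2 = 1 := by
    have h1 : 1 ≤ M χ ^ 2 := by
      have h2 : 0 < M χ ^ 2 := by positivity
      linarith
    linarith
  have hδ : M χ = 1 ∨ M χ = -1 := by
    have h1 : (M χ - 1) * (M χ + 1) = 0 := by linear_combination hχsq
    rcases mul_eq_zero.mp h1 with h | h
    · left; linarith
    · right; linarith
  have hzero : ∀ ψ, ψ ≠ trivIrr G → ψ ≠ χ → M ψ = 0 := by
    intro ψ h1 h2
    apply forall_zero_of_sq_sum ((Finset.univ.erase (trivIrr G)).erase χ) M (by linarith)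
    exact Finset.mem_erase.mpr ⟨h2, Finset.mem_erase.mpr ⟨h1, Finset.mem_univ _⟩⟩
  have hθχ : ∀ i, θ i ≠ χ := by
    intro i h
    apply hχ0
    rw [← h, hMexc]
  have hformula : ∀ y : G, y ∈ P → y ≠ 1 → ∀ A : IrrCharacter G → ℂ,
      (∀ i j, A (θ i) = A (θ j)) →
      ∑ ψ, A ψ * conj ((ψ : G → ℂ) y)
        = A (trivIrr G) + (M χ : ℂ) * A χ - ((ε - n * b : ℤ) : ℂ) * A (θ i₀) := by
    intro y hy hy1 A hA
    rw [hform y hy hy1 A hA, sum_two (trivIrr G) χ hχT (fun ψ => A ψ * (M ψ : ℂ))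
      (fun ψ h1 h2 => by rw [hzero ψ h1 h2]; simp), hMT]
    push_cast
    ring
  refine ⟨n, ε - n * b, M χ, θ, χ, i₀, hn, hθinj, ?_, hε', hδ, hχT, hθχ, hθT, hdeg χ hθχ, ?_,
    hθvan, hθone, hformula⟩
  · intro ψ h1 h2 h3
    obtain ⟨a, ha⟩ := hdeg ψ h3
    exact ⟨a, by rw [ha, hzero ψ h1 h2, zero_add]⟩
  have h1 := hformula y hyP hy1 (fun ψ => (ψ : G → ℂ) 1) hθdeg
  rw [horth, trivIrr_apply, deg_eq χ, deg_eq (θ i₀)] at h1
  have h2 : ((1 + M χ * (charDegree (χ : G → ℂ) : ℤ) : ℤ) : ℂ)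
      = (((ε - n * b) * (charDegree ((θ i₀ : IrrCharacter G) : G → ℂ) : ℤ) : ℤ) : ℂ) := by
    push_cast at h1 ⊢
    linear_combination -h1
  exact_mod_cast h2

end Cfsg.Agent.Lib.Helper20.P2EXC
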