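import Mathlib

set_option autoImplicit false

namespace Cfsg.Agent.Lib.Helper20.ThStep1

variable {G : Type*} [Group G]

/-- the centralizer of `V`, with membership in conjugation form -/
def CC (V : Subgroup G) : Subgroup G where
  carrier := {x | ∀ v ∈ V, x * v * x⁻¹ = v}
  one_mem' := by intro v _; simp
  mul_mem' := by
    intro a b ha hb v hv
    have h1 := hb v hv
    have h2 := ha v hv
    calc a * b * v * (a * b)⁻¹ = a * (b * v * b⁻¹) * a⁻¹ := by group
      _ = v := by rw [h1, h2]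
  inv_mem' := by
    intro a ha v hv
    have h2 := ha v hv
    calc a⁻¹ * v * a⁻¹⁻¹ = a⁻¹ * (a * v * a⁻¹) * a⁻¹⁻¹ := by rw [h2]
      _ = v := by group

theorem V_comm (V : Subgroup G) (hV : ∀ x : G, x ∈ V ↔ x ^ 2 = 1) {v w : G} (hv : v ∈ V)
    (hw : w ∈ V) : v * w = w * v := by
  have h1 : (v * w) * (v * w) = 1 := by rw [← pow_two]; exact (hV _).1 (V.mul_mem hv hw)
  have h2 : v * v = 1 := by rw [← pow_two]; exact (hV _).1 hv
  have h3 : w * w = 1 := by rw [← pow_two]; exact (hV _).1 hw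
  calc v * w = (v * w)⁻¹ := (inv_eq_of_mul_eq_one_right h1).symm
    _ = w⁻¹ * v⁻¹ := mul_inv_rev _ _
    _ = w * v := by rw [inv_eq_of_mul_eq_one_right h3, inv_eq_of_mul_eq_one_right h2]

theorem V_conj (V : Subgroup G) (hV : ∀ x : G, x ∈ V ↔ x ^ 2 = 1) (g : G) {v : G} (hv : v ∈ V) :
    g * v * g⁻¹ ∈ V := by
  rw [hV, conj_pow, (hV v).1 hv]; simp

theorem CC_normal (V : Subgroup G) (hV : ∀ x : G, x ∈ V ↔ x ^ 2 = 1) : (CC V).Normal := by
  refine ⟨fun x hx g v hv => ?_⟩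
  have h := hx (g⁻¹ * v * g) (by simpa using V_conj V hV g⁻¹ hv)
  calc g * x * g⁻¹ * v * (g * x * g⁻¹)⁻¹ = g * (x * (g⁻¹ * v * g) * x⁻¹) * g⁻¹ := by group
    _ = v := by rw [h]; group

/-- the "norm" of `v` under `a`: product of the first `n` conjugates -/
def Nm (a : G) (n : ℕ) (v : G) : G := ((List.range n).map (fun i => a ^ i * v * (a ^ i)⁻¹)).prod

theorem Nm_zero (a v : G) : Nm a 0 v = 1 := by simp [Nm]

theorem Nm_succ (a : G) (n : ℕ) (v : G) :
    Nm a (n + 1) v = Nm a n v * (a ^ n * v * (a ^ n)⁻¹) := by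
  simp [Nm, List.range_succ]

theorem free_action [Finite G] (V : Subgroup G) (hV : ∀ x : G, x ∈ V ↔ x ^ 2 = 1)
    (htrans : ∀ x y : G, x ≠ 1 → x ^ 2 = 1 → y ≠ 1 → y ^ 2 = 1 → ∃ g : G, g * x * g⁻¹ = y)
    (A : Subgroup G) (hAn : A.Normal)
    (hAC : ∀ a ∈ A, ∀ b ∈ A, a * b * a⁻¹ * b⁻¹ ∈ CC V)
    (m : ℕ) (hm : Odd m) (hmA : ∀ a ∈ A, a ^ m ∈ CC V)
    (a : G) (ha : a ∈ A) (haC : a ∉ CC V) (u : G) (hu : u ∈ V) (hfix : a * u * a⁻¹ = u) :
    u = 1 := by
  by_contra hu1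
  have hcomm := fun {v w : G} (hv : v ∈ V) (hw : w ∈ V) => V_comm V hV hv hw
  have hconj := fun (g : G) {v : G} (hv : v ∈ V) => V_conj V hV g hv
  have N1 : ∀ n v, v ∈ V → Nm a n v ∈ V := by
    intro n; induction n with
    | zero => intro v _; rw [Nm_zero]; exact V.one_mem
    | succ n ih => intro v hv; rw [Nm_succ]; exact V.mul_mem (ih v hv) (hconj _ hv)
  have N2 : ∀ n v v', v ∈ V → v' ∈ V → Nm a n (v * v') = Nm a n v * Nm a n v' := by
    intro n; induction n with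
    | zero => intro v v' _ _; simp [Nm_zero]
    | succ n ih =>
      intro v v' hv hv'
      rw [Nm_succ, Nm_succ, Nm_succ, ih v v' hv hv']
      have e1 : a ^ n * (v * v') * (a ^ n)⁻¹
          = (a ^ n * v * (a ^ n)⁻¹) * (a ^ n * v' * (a ^ n)⁻¹) := by group
      rw [e1]
      have e2 := hcomm (N1 n v' hv') (hconj (a ^ n) hv)
      calc Nm a n v * Nm a n v' * (a ^ n * v * (a ^ n)⁻¹ * (a ^ n * v' * (a ^ n)⁻¹))
          = Nm a n v * (Nm a n v' * (a ^ n * v * (a ^ n)⁻¹)) * (a ^ n * v' * (a ^ n)⁻¹) := by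
            simp only [mul_assoc]
        _ = Nm a n v * ((a ^ n * v * (a ^ n)⁻¹) * Nm a n v') * (a ^ n * v' * (a ^ n)⁻¹) := by
            rw [e2]
        _ = _ := by simp only [mul_assoc]
  have N3 : ∀ v : G, a * v * a⁻¹ = v → ∀ n, Nm a n v = v ^ n := by
    intro v hv
    have hfixpow : ∀ n : ℕ, a ^ n * v * (a ^ n)⁻¹ = v := by
      intro n; induction n with
      | zero => simp
      | succ n ih =>
        calc a ^ (n + 1) * v * (a ^ (n + 1))⁻¹ = a ^ n * (a * v * a⁻¹) * (a ^ n)⁻¹ := by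
              rw [pow_succ]; group
          _ = v := by rw [hv, ih]
    intro n; induction n with
    | zero => simp [Nm_zero]
    | succ n ih => rw [Nm_succ, ih, hfixpow, pow_succ]
  have N4 : ∀ (w : G) (n : ℕ),
      Nm a n (w⁻¹ * (a * w * a⁻¹)) = w⁻¹ * (a ^ n * w * (a ^ n)⁻¹) := by
    intro w n; induction n with
    | zero => simp [Nm_zero]
    | succ n ih => rw [Nm_succ, ih, pow_succ]; group
  have N5 : ∀ b ∈ A, ∀ (n : ℕ) (v : G), v ∈ V → b * Nm a n v * b⁻¹ = Nm a n (b * v * b⁻¹) := by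
    intro b hb n; induction n with
    | zero => intro v _; simp [Nm_zero]
    | succ n ih =>
      intro v hv
      rw [Nm_succ, Nm_succ, ← ih v hv]
      have hc : b * a ^ n * b⁻¹ * (a ^ n)⁻¹ ∈ CC V := hAC b hb (a ^ n) (A.pow_mem ha n)
      have hX : a ^ n * (b * v * b⁻¹) * (a ^ n)⁻¹ ∈ V := hconj _ (hconj _ hv)
      have h1 := hc _ hX
      have h2 : b * (a ^ n * v * (a ^ n)⁻¹) * b⁻¹ = a ^ n * (b * v * b⁻¹) * (a ^ n)⁻¹ := by
        rw [← h1]; group
      rw [← h2]; group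
  have podd : ∀ v ∈ V, v ^ m = v := by
    intro v hv
    obtain ⟨k, rfl⟩ := hm
    rw [pow_succ, pow_mul, (hV v).1 hv, one_pow, one_mul]
  have hw : ∃ w ∈ V, a * w * a⁻¹ ≠ w := by
    by_contra hall
    exact haC (fun v hv => by
      by_contra h
      exact hall ⟨v, hv, h⟩)
  obtain ⟨w, hwV, hwa⟩ := hw
  obtain ⟨w', hw'⟩ : ∃ w' : G, w' = w⁻¹ * (a * w * a⁻¹) := ⟨_, rfl⟩
  have hw'V : w' ∈ V := by rw [hw']; exact V.mul_mem (V.inv_mem hwV) (hconj a hwV)
  have hNw' : Nm a m w' = 1 := by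
    rw [hw', N4]
    have := hmA a ha w hwV
    rw [this]; group
  have hNu : Nm a m u = u := by rw [N3 u hfix, podd u hu]
  have hnofix : a * w' * a⁻¹ ≠ w' := by
    intro h
    have h1 : w' = 1 := by rw [← hNw', N3 w' h m, podd w' hw'V]
    rw [hw'] at h1
    exact hwa (inv_mul_eq_one.1 h1).symm
  obtain ⟨y, hy⟩ : ∃ y : G, y = u * w' := ⟨_, rfl⟩
  have hyV : y ∈ V := by rw [hy]; exact V.mul_mem hu hw'V
  have hy1 : y ≠ 1 := by
    intro h
    rw [hy] at h
    have hw'u : w' = u⁻¹ := eq_inv_of_mul_eq_one_right h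
    apply hnofix
    rw [hw'u]
    calc a * u⁻¹ * a⁻¹ = (a * u * a⁻¹)⁻¹ := by group
      _ = u⁻¹ := by rw [hfix]
  have hNy : Nm a m y = u := by rw [hy, N2 m u w' hu hw'V, hNu, hNw', mul_one]
  have key : ∀ b ∈ A, b * y * b⁻¹ = y → b * u * b⁻¹ = u := by
    intro b hb hby
    calc b * u * b⁻¹ = b * Nm a m y * b⁻¹ := by rw [hNy]
      _ = Nm a m (b * y * b⁻¹) := N5 b hb m y hyV
      _ = Nm a m y := by rw [hby]
      _ = u := hNy
  obtain ⟨g, hg⟩ := htrans u y hu1 ((hV u).1 hu) hy1 ((hV y).1 hyV)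
  have step : ∀ b ∈ A, b * u * b⁻¹ = u → (g * b * g⁻¹) * u * (g * b * g⁻¹)⁻¹ = u := by
    intro b hb hbu
    apply key _ (hAn.conj_mem b hb g)
    rw [← hg]
    calc g * b * g⁻¹ * (g * u * g⁻¹) * (g * b * g⁻¹)⁻¹ = g * (b * u * b⁻¹) * g⁻¹ := by group
      _ = g * u * g⁻¹ := by rw [hbu]
  have iter : ∀ n : ℕ, ∀ b ∈ A, b * u * b⁻¹ = u →
      (g ^ n * b * (g ^ n)⁻¹) * u * (g ^ n * b * (g ^ n)⁻¹)⁻¹ = u := by
    intro n; induction n with
    | zero => intro b hb hbu; simpa using hbu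
    | succ n ih =>
      intro b hb hbu
      have h1 := step _ hb hbu
      have h2 := ih (g * b * g⁻¹) (hAn.conj_mem b hb g) h1
      have e : g ^ (n + 1) * b * (g ^ (n + 1))⁻¹ = g ^ n * (g * b * g⁻¹) * (g ^ n)⁻¹ := by
        rw [pow_succ]; group
      rw [e]; exact h2
  have hginv : g ^ (orderOf g - 1) = g⁻¹ := by
    have hpos : 0 < orderOf g := orderOf_pos g
    have : g ^ (orderOf g - 1) * g = 1 := by
      rw [← pow_succ, Nat.sub_add_cancel hpos, pow_orderOf_eq_one]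
    exact eq_inv_of_mul_eq_one_left this
  have h3 := iter (orderOf g - 1) a ha hfix
  rw [hginv] at h3
  have hay : a * y * a⁻¹ = y := by
    rw [← hg]
    calc a * (g * u * g⁻¹) * a⁻¹
        = g * ((g⁻¹ * a * g⁻¹⁻¹) * u * (g⁻¹ * a * g⁻¹⁻¹)⁻¹) * g⁻¹ := by group
      _ = g * u * g⁻¹ := by rw [h3]
  apply hnofix
  have hw'eq : w' = u⁻¹ * y := by rw [hy]; group
  rw [hw'eq]
  calc a * (u⁻¹ * y) * a⁻¹ = (a * u * a⁻¹)⁻¹ * (a * y * a⁻¹) := by group
    _ = u⁻¹ * y := by rw [hfix, hay]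

theorem two_le [Finite G] (V : Subgroup G) (hV : ∀ x : G, x ∈ V ↔ x ^ 2 = 1)
    (htrans : ∀ x y : G, x ≠ 1 → x ^ 2 = 1 → y ≠ 1 → y ^ 2 = 1 → ∃ g : G, g * x * g⁻¹ = y)
    (N : Subgroup G) (hN : N.Normal) (h2 : ∀ x ∈ N, ∃ j : ℕ, x ^ 2 ^ j ∈ CC V) : N ≤ CC V := by
  by_cases hV1 : ∀ v ∈ V, v = 1
  · intro x _ v hv; rw [hV1 v hv]; simp
  have : V.Normal := ⟨fun v hv g => V_conj V hV g hv⟩
  let ρ : G →* MulAut V := MulAut.conjNormal
  have hρ : ∀ (x : G) (v : V), ((ρ x v : V) : G) = x * v * x⁻¹ :=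
    fun x v => MulAut.conjNormal_apply x v
  have hρ1 : ∀ x ∈ CC V, ρ x = 1 := by
    intro x hx
    ext v
    rw [hρ]; simpa using hx v v.2
  let Γ : Subgroup (MulAut V) := N.map ρ
  have hΓ : IsPGroup 2 Γ := by
    rintro ⟨γ, hγ⟩
    obtain ⟨x, hx, rfl⟩ := Subgroup.mem_map.1 hγ
    obtain ⟨j, hj⟩ := h2 x hx
    refine ⟨j, Subtype.ext ?_⟩
    show (ρ x) ^ 2 ^ j = 1
    rw [← map_pow]; exact hρ1 _ hj
  have hVp : IsPGroup 2 V := fun v => ⟨1, Subtype.ext (by simpa using (hV v).1 v.2)⟩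
  have hcard : 2 ∣ Nat.card V := by
    rcases hVp.card_eq_or_dvd with h | h
    · exfalso
      apply hV1
      intro v hv
      have := Subgroup.card_eq_one.1 h
      rw [this] at hv
      exact Subgroup.mem_bot.1 hv
    · exact h
  obtain ⟨b, hb, hb1⟩ := hΓ.exists_fixed_point_of_prime_dvd_card_of_fixed_point (α := V) hcard
    (a := 1) (by
      intro γ
      rw [Subgroup.smul_def, MulAut.smul_def, map_one])
  have hb0 : (b : G) ≠ 1 := fun h => hb1 (Subtype.ext h.symm)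
  have fixN : ∀ x ∈ N, x * (b : G) * x⁻¹ = b := by
    intro x hx
    have := hb ⟨ρ x, Subgroup.mem_map_of_mem ρ hx⟩
    rw [Subgroup.smul_def, MulAut.smul_def] at this
    have h' := congrArg Subtype.val this
    rw [← hρ]; exact h'
  intro x hx v hv
  by_cases hv1 : v = 1
  · rw [hv1]; simp
  obtain ⟨g, hg⟩ := htrans b v hb0 ((hV _).1 b.2) hv1 ((hV v).1 hv)
  have := fixN (g⁻¹ * x * g) (by simpa using hN.conj_mem x hx g⁻¹)
  calc x * v * x⁻¹ = g * ((g⁻¹ * x * g) * (b : G) * (g⁻¹ * x * g)⁻¹) * g⁻¹ := by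
        rw [← hg]; group
    _ = g * (b : G) * g⁻¹ := by rw [this]
    _ = v := hg

theorem exists_A (hsol : Group.IsSolvable G) (C : Subgroup G) (hC : C ≠ ⊤) :
    ∃ A : Subgroup G, A.Normal ∧ ¬ A ≤ C ∧ ∀ a ∈ A, ∀ b ∈ A, a * b * a⁻¹ * b⁻¹ ∈ C := by
  classical
  obtain ⟨n, hn⟩ := hsol.solvable
  have hex : ∃ k, derivedSeries G k ≤ C := ⟨n, by rw [hn]; exact bot_le⟩
  have h0 : Nat.find hex ≠ 0 := by
    intro h0
    have := Nat.find_spec hex
    rw [h0, derivedSeries_zero] at this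
    exact hC (top_le_iff.1 this)
  obtain ⟨k, hk⟩ := Nat.exists_eq_succ_of_ne_zero h0
  refine ⟨derivedSeries G k, derivedSeries_normal G k,
    Nat.find_min hex (by rw [hk]; exact Nat.lt_succ_self k), ?_⟩
  intro a ha b hb
  have := Nat.find_spec hex
  rw [hk, derivedSeries_succ] at this
  exact this (Subgroup.commutator_mem_commutator ha hb)

/-- P1 of S3797 (helper2): in a solvable group whose involutions (with 1) form a subgroup `V`
on which `G` is transitive, every 2-element centralizes `V`. -/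
theorem two_elements_centralize {G : Type*} [Group G] [Finite G] (hsol : Group.IsSolvable G)
    (V : Subgroup G) (hV : ∀ x : G, x ∈ V ↔ x ^ 2 = 1)
    (htrans : ∀ x y : G, x ≠ 1 → x ^ 2 = 1 → y ≠ 1 → y ^ 2 = 1 → ∃ g : G, g * x * g⁻¹ = y)
    (t : G) (k : ℕ) (ht : t ^ 2 ^ k = 1) : ∀ v ∈ V, t * v = v * t := by
  classical
  suffices h : t ∈ CC V by
    intro v hv
    have := h v hv
    calc t * v = t * v * t⁻¹ * t := by group
      _ = v * t := by rw [this]
  by_contra htC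
  have hCn : (CC V).Normal := CC_normal V hV
  have hVC : V ≤ CC V := by
    intro v hv w hw
    rw [V_comm V hV hv hw]; group
  obtain ⟨A, hAn, hAC, hcomm⟩ := exists_A hsol (CC V) (fun h => htC (h ▸ Subgroup.mem_top t))
  -- 2-elements of A modulo C lie in C
  have h2A : ∀ x ∈ A, ∀ j : ℕ, x ^ 2 ^ j ∈ CC V → x ∈ CC V := by
    let π := QuotientGroup.mk' (CC V)
    have hπ : ∀ x, π x = 1 ↔ x ∈ CC V := fun x => QuotientGroup.eq_one_iff x
    let O : Subgroup G :=
      { carrier := {x | x ∈ A ∧ ∃ j : ℕ, π x ^ 2 ^ j = 1}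
        one_mem' := ⟨A.one_mem, 0, by simp⟩
        mul_mem' := by
          rintro x y ⟨hx, i, hi⟩ ⟨hy, j, hj⟩
          refine ⟨A.mul_mem hx hy, i + j, ?_⟩
          have hc : Commute (π x) (π y) := by
            have := (hπ _).2 (hcomm x hx y hy)
            rw [map_mul, map_mul, map_mul, map_inv, map_inv] at this
            have h' := mul_inv_eq_one.1 this
            show π x * π y = π y * π x
            calc π x * π y = π x * π y * (π x)⁻¹ * π x := by group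
              _ = π y * π x := by rw [h']
          have e1 : π x ^ 2 ^ (i + j) = 1 := by rw [pow_add, pow_mul, hi, one_pow]
          have e2 : π y ^ 2 ^ (i + j) = 1 := by rw [pow_add, mul_comm, pow_mul, hj, one_pow]
          rw [map_mul, hc.mul_pow, e1, e2, one_mul]
        inv_mem' := by
          rintro x ⟨hx, i, hi⟩
          exact ⟨A.inv_mem hx, i, by rw [map_inv, inv_pow, hi, inv_one]⟩ }
    have hOn : O.Normal := ⟨by
      rintro x ⟨hx, i, hi⟩ g
      refine ⟨hAn.conj_mem x hx g, i, ?_⟩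
      rw [map_mul, map_mul, map_inv, conj_pow, hi]; simp⟩
    have hO := two_le V hV htrans O hOn (by
      rintro x ⟨hx, i, hi⟩
      exact ⟨i, (hπ _).1 (by rw [map_pow]; exact hi)⟩)
    intro x hx j hj
    exact hO ⟨hx, j, by rw [← map_pow]; exact (hπ _).2 hj⟩
  -- the odd part of |G|
  obtain ⟨e, m, hmodd, hcard⟩ := Nat.exists_eq_two_pow_mul_odd (n := Nat.card G) Nat.card_pos.ne'
  have hpowcard : ∀ x : G, x ^ (2 ^ e * m) = 1 := fun x => by
    rw [← hcard]; exact pow_card_eq_one'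
  have hmA : ∀ a ∈ A, a ^ m ∈ CC V := by
    intro a ha
    apply h2A _ (A.pow_mem ha m) e
    rw [← pow_mul, mul_comm, hpowcard]; exact (CC V).one_mem
  have hfree := fun a ha haC u hu hfix =>
    free_action V hV htrans A hAn hcomm m hmodd hmA a ha haC u hu hfix
  -- a Sylow subgroup of A outside C
  have hsyl : ∃ (r : ℕ) (_ : Fact r.Prime) (P : Sylow r A),
      ¬ ((P : Subgroup A).map A.subtype ≤ CC V) := by
    by_contra hall
    apply hAC
    have hidx : ((CC V).subgroupOf A).index = 1 := by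
      rw [Nat.eq_one_iff_not_exists_prime_dvd]
      intro r hr hdvd
      have : Fact r.Prime := ⟨hr⟩
      obtain ⟨P⟩ : Nonempty (Sylow r A) := inferInstance
      have hP : (P : Subgroup A) ≤ (CC V).subgroupOf A := by
        intro x hx
        rw [Subgroup.mem_subgroupOf]
        by_contra hx'
        exact hall ⟨r, ⟨hr⟩, P, fun h => hx' (h (Subgroup.mem_map_of_mem _ hx))⟩
      exact P.not_dvd_index (dvd_trans hdvd (Subgroup.index_dvd_of_le hP))
    have htop := Subgroup.index_eq_one.1 hidx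
    intro x hx
    have hx' : (⟨x, hx⟩ : A) ∈ (CC V).subgroupOf A := by rw [htop]; trivial
    exact Subgroup.mem_subgroupOf.1 hx'
  obtain ⟨r, hr, P, hPC⟩ := hsyl
  obtain ⟨R, hR⟩ : ∃ R : Subgroup G, R = (P : Subgroup A).map A.subtype := ⟨_, rfl⟩
  rw [← hR] at hPC
  have hRA : R ≤ A := by
    rw [hR]; rintro x ⟨y, _, rfl⟩; exact y.2
  have hRp : ∀ x ∈ R, ∃ i : ℕ, x ^ r ^ i = 1 := by
    rw [hR]
    rintro x ⟨y, hy, rfl⟩
    obtain ⟨i, hi⟩ := P.2 ⟨y, hy⟩
    refine ⟨i, ?_⟩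
    have := congrArg (fun z : (P : Subgroup A) => ((z : A) : G)) hi
    simpa using this
  have hr2 : r ≠ 2 := by
    rintro rfl
    apply hPC
    intro x hx
    obtain ⟨i, hi⟩ := hRp x hx
    exact h2A x (hRA hx) i (by rw [hi]; exact (CC V).one_mem)
  -- Frattini
  have hfr : Subgroup.normalizer (R : Set G) ⊔ A = ⊤ := by
    rw [hR]
    have : A.Normal := hAn
    exact Sylow.normalizer_sup_eq_top P
  have htmem : t ∈ ((Subgroup.normalizer (R : Set G) ⊔ A : Subgroup G) : Set G) := by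
    rw [hfr]; trivial
  rw [Subgroup.mul_normal (hN := hAn)] at htmem
  obtain ⟨n, hn, a, ha, hna⟩ := Set.mem_mul.1 htmem
  have hnN : n ∈ Subgroup.normalizer (R : Set G) := hn
  have haA : a ∈ A := ha
  obtain ⟨t1, ht1⟩ : ∃ t1 : G, t1 = n ^ m := ⟨_, rfl⟩
  have ht1N : t1 ∈ Subgroup.normalizer (R : Set G) := by
    rw [ht1]; exact Subgroup.pow_mem _ hnN m
  have ht1two : t1 ^ 2 ^ e = 1 := by rw [ht1, ← pow_mul, mul_comm, hpowcard]
  have ht1C : t1 ∉ CC V := by
    intro h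
    have ha1 : t1⁻¹ * t ^ m ∈ A := by
      have : A.Normal := hAn
      have e1 : (QuotientGroup.mk' A) n = (QuotientGroup.mk' A) t := by
        rw [← hna, map_mul]
        have : (QuotientGroup.mk' A) a = 1 := (QuotientGroup.eq_one_iff a).2 haA
        rw [this, mul_one]
      have e2 : (QuotientGroup.mk' A) (t1⁻¹ * t ^ m) = 1 := by
        rw [map_mul, map_inv, ht1, map_pow, map_pow, e1, inv_mul_cancel]
      exact (QuotientGroup.eq_one_iff _).1 e2
    have ha1C : t1⁻¹ * t ^ m ∈ CC V := by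
      apply h2A _ ha1 k
      have e3 : (QuotientGroup.mk' (CC V)) ((t1⁻¹ * t ^ m) ^ 2 ^ k) = 1 := by
        have h1 : (QuotientGroup.mk' (CC V)) t1 = 1 := (QuotientGroup.eq_one_iff t1).2 h
        rw [map_pow, map_mul, map_inv, h1, inv_one, one_mul, ← map_pow, ← pow_mul, mul_comm,
          pow_mul, ht, one_pow, map_one]
      exact (QuotientGroup.eq_one_iff _).1 e3
    have htm : t ^ m ∈ CC V := by
      have := (CC V).mul_mem h ha1C
      simpa using this
    apply htC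
    have hcop : Nat.Coprime m (2 ^ k) := Nat.Coprime.pow_right k hmodd.coprime_two_right
    have hb := Nat.gcd_eq_gcd_ab m (2 ^ k)
    rw [Nat.Coprime.gcd_eq_one hcop] at hb
    have hte : t = (t ^ m) ^ (Nat.gcdA m (2 ^ k)) * (t ^ 2 ^ k) ^ (Nat.gcdB m (2 ^ k)) := by
      rw [← zpow_natCast t m, ← zpow_natCast t (2 ^ k), ← zpow_mul, ← zpow_mul, ← zpow_add,
        ← hb]
      simp
    rw [hte, ht, one_zpow, mul_one]
    exact (CC V).zpow_mem htm _
  -- the last power of t1 outside C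
  have hex : ∃ j : ℕ, t1 ^ 2 ^ j ∈ CC V := ⟨e, by rw [ht1two]; exact (CC V).one_mem⟩
  have hj0 : Nat.find hex ≠ 0 := by
    intro h0
    have := Nat.find_spec hex
    rw [h0] at this
    simp at this
    exact ht1C this
  obtain ⟨j, hj⟩ := Nat.exists_eq_succ_of_ne_zero hj0
  obtain ⟨t2, ht2⟩ : ∃ t2 : G, t2 = t1 ^ 2 ^ j := ⟨_, rfl⟩
  have ht2C : t2 ∉ CC V := by
    rw [ht2]; exact Nat.find_min hex (by rw [hj]; exact Nat.lt_succ_self j)
  have ht2N : t2 ∈ Subgroup.normalizer (R : Set G) := by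
    rw [ht2]; exact Subgroup.pow_mem _ ht1N _
  obtain ⟨s, hs⟩ : ∃ s : G, s = t2 ^ 2 := ⟨_, rfl⟩
  have hsC : s ∈ CC V := by
    have := Nat.find_spec hex
    rw [hj, pow_succ, pow_mul] at this
    rw [hs, ht2]; exact this
  have hsN : s ∈ Subgroup.normalizer (R : Set G) := by
    rw [hs]; exact Subgroup.pow_mem _ ht2N _
  have hs1 : s ≠ 1 := fun h => ht2C (hVC ((hV t2).2 (by rw [← hs]; exact h)))
  have hs2 : s ^ 2 ^ e = 1 := by
    rw [hs, ht2, ← pow_mul, ← pow_mul]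
    have e' : 2 ^ j * (2 * 2 ^ e) = 2 ^ e * (2 ^ j * 2) := by ring
    rw [e', pow_mul, ht1two, one_pow]
  -- a fixed point of s on a coset of R ⊓ C
  have hx : ∃ x ∈ R, x ∉ CC V := by
    by_contra hall
    exact hPC (fun x hx => by by_contra h; exact hall ⟨x, hx, h⟩)
  obtain ⟨x, hxR, hxC⟩ := hx
  let X := {y : G // y ∈ R ∧ x⁻¹ * y ∈ CC V}
  have hmemN : ∀ y, y ∈ R → s * y * s⁻¹ ∈ R :=
    fun y hy => (Subgroup.mem_normalizer_iff.1 hsN y).1 hy
  let f : Function.End X := fun y => ⟨s * y.1 * s⁻¹, hmemN _ y.2.1, by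
    have h1 : y.1⁻¹ * s * y.1 ∈ CC V := by simpa using hCn.conj_mem s hsC y.1⁻¹
    have h2 := (CC V).mul_mem ((CC V).mul_mem y.2.2 h1) ((CC V).inv_mem hsC)
    have e : x⁻¹ * (s * y.1 * s⁻¹) = x⁻¹ * y.1 * (y.1⁻¹ * s * y.1) * s⁻¹ := by group
    rw [e]; exact h2⟩
  have hfpow : ∀ (n : ℕ) (y : X), ((f ^ n) y).1 = s ^ n * y.1 * (s ^ n)⁻¹ := by
    intro n; induction n with
    | zero => intro y; rw [pow_zero, pow_zero, inv_one, one_mul, mul_one]; rfl
    | succ n ih =>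
      intro y
      rw [pow_succ]
      show ((f ^ n) (f y)).1 = _
      rw [ih]
      show s ^ n * (s * y.1 * s⁻¹) * (s ^ n)⁻¹ = _
      rw [pow_succ]; group
  have hf : f ^ 2 ^ e = 1 := by
    funext y
    apply Subtype.ext
    rw [hfpow, hs2, inv_one, one_mul, mul_one]; rfl
  have : Fintype X := Fintype.ofFinite X
  have hmod := Equiv.Perm.card_fixedPoints_modEq (p := 2) (n := e) hf
  have hcardX : Fintype.card X = Nat.card (R ⊓ CC V : Subgroup G) := by
    rw [← Nat.card_eq_fintype_card]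
    exact Nat.card_congr
      { toFun := fun y => ⟨x⁻¹ * y.1, Subgroup.mem_inf.2 ⟨R.mul_mem (R.inv_mem hxR) y.2.1, y.2.2⟩⟩
        invFun := fun c => ⟨x * c.1, R.mul_mem hxR (Subgroup.mem_inf.1 c.2).1, by
          simpa using (Subgroup.mem_inf.1 c.2).2⟩
        left_inv := fun y => Subtype.ext (by simp)
        right_inv := fun c => Subtype.ext (by simp) }
  have hRC : IsPGroup r (R ⊓ CC V : Subgroup G) := by
    rintro ⟨c, hc⟩
    obtain ⟨i, hi⟩ := hRp c (Subgroup.mem_inf.1 hc).1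
    exact ⟨i, Subtype.ext (by simpa using hi)⟩
  obtain ⟨i, hi⟩ := (IsPGroup.iff_card).1 hRC
  have hodd : Odd (Fintype.card X) := by
    rw [hcardX, hi]
    exact Odd.pow (hr.out.odd_of_ne_two hr2)
  have hfp : 0 < Fintype.card (Function.fixedPoints f) := by
    have h1 : Fintype.card X % 2 = 1 := Nat.odd_iff.1 hodd
    have h2 : Fintype.card (Function.fixedPoints f) % 2 = 1 := by rw [← hmod]; exact h1
    omega
  obtain ⟨⟨u, hu⟩⟩ := Fintype.card_pos_iff.1 hfp
  have hsu : s * u.1 * s⁻¹ = u.1 := congrArg Subtype.val hu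
  have huA : u.1 ∈ A := hRA u.2.1
  have huC : u.1 ∉ CC V := by
    intro h
    apply hxC
    have := (CC V).mul_mem h ((CC V).inv_mem u.2.2)
    simpa using this
  -- the involution in ⟨s⟩
  have hex2 : ∃ i : ℕ, s ^ 2 ^ i = 1 := ⟨e, hs2⟩
  have hi0 : Nat.find hex2 ≠ 0 := by
    intro h0
    have := Nat.find_spec hex2
    rw [h0] at this
    simp at this
    exact hs1 this
  obtain ⟨i', hi'⟩ := Nat.exists_eq_succ_of_ne_zero hi0
  obtain ⟨z, hz⟩ : ∃ z : G, z = s ^ 2 ^ i' := ⟨_, rfl⟩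
  have hz1 : z ≠ 1 := by
    rw [hz]; exact Nat.find_min hex2 (by rw [hi']; exact Nat.lt_succ_self i')
  have hz2 : z ^ 2 = 1 := by
    have := Nat.find_spec hex2
    rw [hi', pow_succ, pow_mul] at this
    rw [hz]; exact this
  have hzV : z ∈ V := (hV z).2 hz2
  have huz : u.1 * z * u.1⁻¹ = z := by
    have hc : Commute u.1 s := by
      show u.1 * s = s * u.1
      calc u.1 * s = (s * u.1 * s⁻¹) * s := by rw [hsu]
        _ = s * u.1 := by group
    have := (hc.pow_right (2 ^ i')).eq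
    rw [hz, this]; group
  exact hz1 (hfree u.1 huA huC z hzV huz)

end Cfsg.Agent.Lib.Helper20.ThStep1
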