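import Mathlib
import Cfsg.Agent.Lib.Helper16.BFStmt

/-!
# S4700 piece NFA: a divisor `≡ 1 (mod p)` of `e (1 + n p)` when `n` is not of the F-form
-/

set_option autoImplicit false

namespace Cfsg.Agent.Lib.Helper20.BFNFA

open Cfsg.Agent.Lib.Helper16.BFStmt

theorem fform_of_dvd (n p u : ℕ) (hu : 1 ≤ u) (hun : u < n)
    (hd : (1 + u * p) ∣ (u + 1) * (n - u)) : FForm n p := by
  obtain ⟨h, hh⟩ := hd
  have hpos : 0 < h := by
    rcases Nat.eq_zero_or_pos h with h0 | h0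
    · rw [h0, mul_zero] at hh
      have h1 : 0 < (u + 1) * (n - u) := Nat.mul_pos (by omega) (by omega)
      omega
    · exact h0
  refine ⟨h, u, hpos, hu, ?_⟩
  obtain ⟨d, rfl⟩ : ∃ d, n = u + d := ⟨n - u, by omega⟩
  have h2 : u + d - u = d := by omega
  rw [h2] at hh
  calc (u + d) * (u + 1) = (u + 1) * d + u ^ 2 + u := by ring
    _ = (1 + u * p) * h + u ^ 2 + u := by rw [hh]
    _ = h * u * p + u ^ 2 + u + h := by ring

/-- the core: a divisor `1 + u p` (`u ≥ 1`) of `(p - 1) (1 + n p)`, written with `p = q + 1` -/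
theorem core (q n u : ℕ) (hq : 2 ≤ q) (hu1 : 1 ≤ u) (hF : ¬ FForm n (q + 1))
    (hx' : (1 + u * (q + 1)) ∣ q * (1 + n * (q + 1))) : u = n := by
  rcases Nat.lt_trichotomy u n with hlt | heq | hgt
  · exfalso
    obtain ⟨d, rfl⟩ : ∃ d, n = u + d := ⟨n - u, by omega⟩
    have hd : 1 ≤ d := by omega
    have h1 : (1 + u * (q + 1)) ∣ u * (q * (1 + (u + d) * (q + 1))) := Dvd.dvd.mul_left hx' u
    have h2 : (u + d) * (q * (1 + u * (q + 1)))
        = u * (q * (1 + (u + d) * (q + 1))) + q * d := by ring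
    have h3 : (1 + u * (q + 1)) ∣ (u + d) * (q * (1 + u * (q + 1))) := ⟨(u + d) * q, by ring⟩
    rw [h2] at h3
    have h4 : (1 + u * (q + 1)) ∣ q * d := (Nat.dvd_add_right h1).mp h3
    have h5 : (1 + u * (q + 1)) * d = u * (q * d) + (u + 1) * d := by ring
    have h6 : (1 + u * (q + 1)) ∣ u * (q * d) + (u + 1) * d := ⟨d, h5.symm⟩
    have h7 : (1 + u * (q + 1)) ∣ (u + 1) * d :=
      (Nat.dvd_add_right (Dvd.dvd.mul_left h4 u)).mp h6
    apply hF
    apply fform_of_dvd (u + d) (q + 1) u hu1 (by omega)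
    have h8 : u + d - u = d := by omega
    rw [h8]
    exact h7
  · exact heq
  · exfalso
    obtain ⟨d, rfl⟩ : ∃ d, u = n + d := ⟨u - n, by omega⟩
    have hd : 1 ≤ d := by omega
    have h1 : (1 + (n + d) * (q + 1)) ∣ (n + d) * (q * (1 + n * (q + 1))) :=
      Dvd.dvd.mul_left hx' _
    have h2 : (n + d) * (q * (1 + n * (q + 1)))
        = n * (q * (1 + (n + d) * (q + 1))) + q * d := by ring
    have h3 : (1 + (n + d) * (q + 1)) ∣ n * (q * (1 + (n + d) * (q + 1))) := ⟨n * q, by ring⟩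
    rw [h2] at h1
    have h4 : (1 + (n + d) * (q + 1)) ∣ q * d := (Nat.dvd_add_right h3).mp h1
    have hq0 : 0 < q := by omega
    have h5 := Nat.le_of_dvd (Nat.mul_pos hq0 hd) h4
    have h6 : q * d ≤ q * (n + d) := Nat.mul_le_mul_left _ (by omega)
    have h7 : (n + d) * (q + 1) = q * (n + d) + (n + d) := by ring
    omega

theorem main : NFA := by
  intro p e n x hp hp3 he hn hF hx hxp hx1
  obtain ⟨q, rfl⟩ : ∃ q, p = q + 1 := ⟨p - 1, by omega⟩
  have hq : q + 1 - 1 = q := by omega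
  rw [hq] at he
  obtain ⟨u, hu⟩ : ∃ u, x = 1 + u * (q + 1) := by
    refine ⟨x / (q + 1), ?_⟩
    have h1 := Nat.div_add_mod x (q + 1)
    rw [hxp, mul_comm] at h1
    omega
  have hu1 : 1 ≤ u := by
    rcases Nat.eq_zero_or_pos u with h0 | h0
    · rw [h0] at hu
      omega
    · exact h0
  have hx' : (1 + u * (q + 1)) ∣ q * (1 + n * (q + 1)) := by
    rw [← hu]
    exact hx.trans (Nat.mul_dvd_mul_right he _)
  rw [hu, core q n u (by omega) hu1 hF hx']

end Cfsg.Agent.Lib.Helper20.BFNFA
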