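import Mathlib
import Cfsg.Agent.Lib.Helper16.BFStmt
import Cfsg.Agent.Lib.Helper20.BFNFA

/-!
# S4700 piece NFB: a divisor `≡ -1 (mod p)` of `e (1 + n p)` when `n` is not of the F-form
-/

set_option autoImplicit false

namespace Cfsg.Agent.Lib.Helper20.BFNFB

open Cfsg.Agent.Lib.Helper16.BFStmt

theorem main : NFB := by
  intro p e n x hp hp3 he hn hF hx hxp
  obtain ⟨q, rfl⟩ : ∃ q, p = q + 1 := ⟨p - 1, by omega⟩
  have hq : q + 1 - 1 = q := by omega
  rw [hq] at he hxp ⊢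
  have hq2 : 2 ≤ q := by omega
  obtain ⟨a, ha⟩ : ∃ a, x = (q + 1) * a + q := by
    refine ⟨x / (q + 1), ?_⟩
    have h1 := Nat.div_add_mod x (q + 1)
    rw [hxp] at h1
    omega
  have hxq : x ∣ q * (1 + n * (q + 1)) := hx.trans (Nat.mul_dvd_mul_right he _)
  obtain ⟨k, hk⟩ := hxq
  have hpos : 0 < q * (1 + n * (q + 1)) := Nat.mul_pos (by omega) (by omega)
  have hk1 : 1 ≤ k := by
    rcases Nat.eq_zero_or_pos k with h0 | h0
    · rw [h0, mul_zero] at hk
      omega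
    · exact h0
  have r1 : (q + 1) * ((a + 1) * k) = ((q + 1) * a + q) * k + k := by ring
  have r2 : (q + 1) * (1 + n * q) = q * (1 + n * (q + 1)) + 1 := by ring
  rw [← ha, ← hk] at r1
  have hdvd : (q + 1) ∣ k - 1 := by
    have h1 : (q + 1) * ((a + 1) * k) - (q + 1) * (1 + n * q) = k - 1 := by omega
    rw [← h1]
    exact Nat.dvd_sub (Dvd.intro _ rfl) (Dvd.intro _ rfl)
  obtain ⟨w, hw⟩ := hdvd
  have hkw : k = 1 + w * (q + 1) := by
    rw [mul_comm] at hw
    omega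
  rcases Nat.eq_zero_or_pos w with hw0 | hw0
  · right
    rw [hw0, zero_mul, add_zero] at hkw
    rw [hkw, mul_one] at hk
    have hx2 : q * (1 + n * (q + 1)) ∣ e * (1 + n * (q + 1)) := by
      rw [hk]
      exact hx
    have hqe : q ∣ e := Nat.dvd_of_mul_dvd_mul_right (by omega) hx2
    exact ⟨Nat.dvd_antisymm he hqe, hk.symm⟩
  · left
    have hkd : (1 + w * (q + 1)) ∣ q * (1 + n * (q + 1)) := by
      rw [← hkw, hk]
      exact Dvd.intro_left _ rfl
    have hwn := Cfsg.Agent.Lib.Helper20.BFNFA.core q n w hq2 hw0 hF hkd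
    rw [hkw, hwn] at hk
    have h1 : 0 < 1 + n * (q + 1) := by omega
    exact (Nat.eq_of_mul_eq_mul_right h1 hk).symm

end Cfsg.Agent.Lib.Helper20.BFNFB
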