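import Mathlib
import Cfsg.Agent.Lib.Helper16.BFStmt

/-!
# S4700 piece SLPSL: `SL₂(F) ≃* PSL₂(F)` in characteristic 2
-/

set_option autoImplicit false

namespace Cfsg.Agent.Lib.Helper20.BFSLPSL

open Cfsg.Agent.Lib.Helper16.BFStmt

theorem two_eq_zero (F : Type) [Field F] [Fintype F] (m : ℕ) (hF : Fintype.card F = 2 ^ m) :
    (2 : F) = 0 := by
  have h1 : ((Fintype.card F : ℕ) : F) = 0 := Nat.cast_card_eq_zero F
  rw [hF] at h1
  push_cast at h1
  exact eq_zero_of_pow_eq_zero h1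

theorem center_eq_bot (F : Type) [Field F] [Fintype F] (m : ℕ) (hF : Fintype.card F = 2 ^ m) :
    Subgroup.center (Matrix.SpecialLinearGroup (Fin 2) F) = ⊥ := by
  have h2 : (2 : F) = 0 := two_eq_zero F m hF
  rw [eq_bot_iff]
  intro A hA
  rw [Matrix.SpecialLinearGroup.mem_center_iff] at hA
  obtain ⟨r, hr, hA⟩ := hA
  rw [Fintype.card_fin] at hr
  have h3 : (r + 1) ^ 2 = 0 := by
    have : (r + 1) ^ 2 = r ^ 2 + 2 * r + 1 := by ring
    rw [this, hr, h2]
    have h4 : (1 : F) + 0 * r + 1 = 2 := by ring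
    rw [h4, h2]
  have h5 : r + 1 = 0 := eq_zero_of_pow_eq_zero h3
  have h6 : r = 1 := by
    have h7 : r = -1 := eq_neg_of_add_eq_zero_left h5
    have h8 : (-1 : F) = 1 := by
      have : (1 : F) + 1 = 0 := by rw [one_add_one_eq_two, h2]
      exact neg_eq_of_add_eq_zero_left this
    rw [h7, h8]
  rw [Subgroup.mem_bot]
  apply Subtype.ext
  rw [← hA, h6]
  simp

theorem main : SlPsl := by
  intro F _ _ m hF
  have hc := center_eq_bot F m hF
  exact ⟨((QuotientGroup.quotientMulEquivOfEq hc).trans QuotientGroup.quotientBot).symm⟩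

end Cfsg.Agent.Lib.Helper20.BFSLPSL
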