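import Mathlib
import Cfsg.Agent.Lib.Lead.BrHalfStmt
import Cfsg.Agent.Lib.CT.Wedderburn
import Cfsg.Agent.Lib.Helper76.GaloisConj

set_option autoImplicit false

namespace Cfsg.Agent.Lib.Helper20.BrCCardL

open Cfsg Cfsg.Agent.Lib.Lead.BrHalf
open scoped ComplexConjugate Classical

universe u

theorem main (hKEx : KEx.{u}) (hDSq : DSq.{u}) (hCountSing : CountSing.{u})
    (hCountP : CountP.{u}) : CardL.{u} := by
  intro L _ _ p _ c
  obtain ⟨k, hk⟩ := hKEx p c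
  have hkcop := hk.1
  have hpp : p.Prime := Fact.out
  have hirr := c.hξ
  obtain ⟨ξσ, hξσ⟩ : ∃ ξσ : L → ℂ, ξσ = fun g => c.ξ (g ^ k) := ⟨_, rfl⟩
  have hσ : ∀ g, c.ξ (g ^ k) = ξσ g := fun g => by rw [hξσ]
  have hirrσ : IsIrrCharacter L ξσ := by
    rw [hξσ]
    exact Cfsg.Agent.Lib.Helper76.GaloisConj.isIrrCharacter_pow c.hξ k hkcop
  have hchar := Cfsg.Agent.Lib.CT.Wedderburn.isCharacter_of_irr hirr
  have hcharσ := Cfsg.Agent.Lib.CT.Wedderburn.isCharacter_of_irr hirrσ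
  have hox : orderOf c.x = p := by
    have h1 : orderOf (⟨c.x, c.hx⟩ : ↥(c.P : Subgroup L)) ∣ Nat.card ↥(c.P : Subgroup L) :=
      orderOf_dvd_natCard _
    rw [Subgroup.orderOf_mk, c.hP] at h1
    rcases (Nat.dvd_prime hpp).mp h1 with h | h
    · exact absurd (orderOf_eq_one_iff.mp h) c.hx1
    · exact h
  have hD : ∀ g, c.D k g = c.ξ g - ξσ g := fun g => by rw [← hσ]; rfl
  have hne : c.ξ ≠ ξσ := by
    intro h
    have h1 := hDSq p c k hk c.x
    rw [if_pos (by rw [hox]), hD, ← h, sub_self, zero_mul] at h1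
    exact (Nat.cast_ne_zero.mpr hpp.ne_zero) h1.symm
  have hs2 : ∑ g : L, c.D k g * conj (c.D k g) = 2 * (Nat.card L : ℂ) := by
    have e : ∀ g : L, c.D k g * conj (c.D k g) =
        c.ξ g * c.ξ g⁻¹ + ξσ g * ξσ g⁻¹ - c.ξ g * ξσ g⁻¹ - ξσ g * c.ξ g⁻¹ := by
      intro g
      rw [Cfsg.Agent.Lib.CT.Wedderburn.char_apply_inv hchar g,
        Cfsg.Agent.Lib.CT.Wedderburn.char_apply_inv hcharσ g, hD]
      simp only [map_sub]
      ring
    rw [Finset.sum_congr rfl (fun g _ => e g), Finset.sum_sub_distrib, Finset.sum_sub_distrib,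
      Finset.sum_add_distrib, Cfsg.Agent.Lib.CT.Wedderburn.irr_sum_mul_inv hirr hirr,
      Cfsg.Agent.Lib.CT.Wedderburn.irr_sum_mul_inv hirrσ hirrσ,
      Cfsg.Agent.Lib.CT.Wedderburn.irr_sum_mul_inv hirr hirrσ,
      Cfsg.Agent.Lib.CT.Wedderburn.irr_sum_mul_inv hirrσ hirr, if_pos rfl, if_pos rfl, if_neg hne,
      if_neg (Ne.symm hne)]
    ring
  have hs1 : ∑ g : L, c.D k g * conj (c.D k g) =
      (c.zc : ℂ) * ((c.n : ℂ) * (((p - 1 : ℕ) : ℂ) * (p : ℂ))) := by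
    rw [Finset.sum_congr rfl (fun g _ => hDSq p c k hk g),
      hCountSing p c (fun _ => (p : ℂ)) (fun _ _ _ => rfl),
      hCountP p c (fun _ => (p : ℂ)) (fun _ _ => rfl),
      Finset.sum_const, Nat.card_Ico, nsmul_eq_mul]
  have hfin : ((2 * Nat.card L : ℕ) : ℂ) = ((p * (p - 1) * c.n * c.zc : ℕ) : ℂ) := by
    have h3 := hs2.symm.trans hs1
    push_cast
    rw [h3]
    ring
  exact_mod_cast hfin

end Cfsg.Agent.Lib.Helper20.BrCCardL
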