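import Mathlib
import Cfsg.Agent.Lib.Lead.BrHalfStmt
import Cfsg.Agent.Lib.CT.Wedderburn
import Cfsg.Agent.Lib.Helper76.GaloisConj

set_option autoImplicit false

namespace Cfsg.Agent.Lib.Helper20.BrCHBSig

open Cfsg Cfsg.Agent.Lib.Lead.BrHalf
open scoped ComplexConjugate Classical

universe u

theorem main : HBSig.{u} := by
  intro L _ _ p _ c k hk ψ hψnt hψne
  beta_reduce at hψne
  obtain ⟨hkcop, -, -⟩ := hk
  obtain ⟨N, hN⟩ : ∃ N, N = Nat.card L := ⟨_, rfl⟩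
  rw [← hN] at hkcop
  have hNpos : 0 < N := hN ▸ Nat.card_pos
  obtain ⟨k', hk'⟩ : ∃ k', k' = k ^ (Nat.totient N - 1) := ⟨_, rfl⟩
  have hk'cop : k'.Coprime N := by rw [hk']; exact Nat.Coprime.pow_left _ hkcop
  have hkk' : k' * k = k ^ Nat.totient N := by
    rw [hk', ← pow_succ]
    congr 1
    have := Nat.totient_pos.mpr hNpos
    omega
  have hmod : k ^ Nat.totient N ≡ 1 [MOD N] := Nat.ModEq.pow_totient hkcop
  have hpow : ∀ g : L, g ^ (k ^ Nat.totient N) = g := by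
    intro g
    have h1 : k ^ Nat.totient N ≡ 1 [MOD orderOf g] :=
      hmod.of_dvd (hN ▸ orderOf_dvd_natCard g)
    have := pow_eq_pow_iff_modEq.mpr h1
    rwa [pow_one] at this
  have h1 : ∀ g : L, (g ^ k') ^ k = g := fun g => by rw [← pow_mul, hkk', hpow]
  have h2 : ∀ g : L, (g ^ k) ^ k' = g := fun g => by rw [← pow_mul, mul_comm, hkk', hpow]
  obtain ⟨e, he⟩ : ∃ e : L ≃ L, ∀ g, e g = g ^ k :=
    ⟨⟨fun g => g ^ k, fun g => g ^ k', h2, h1⟩, fun _ => rfl⟩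
  obtain ⟨e', he'⟩ : ∃ e' : L ≃ L, ∀ g, e' g = g ^ k' :=
    ⟨⟨fun g => g ^ k', fun g => g ^ k, h1, h2⟩, fun _ => rfl⟩
  obtain ⟨ψ', hψ'⟩ : ∃ ψ' : L → ℂ, ψ' = fun g => (ψ : L → ℂ) (g ^ k') := ⟨_, rfl⟩
  have hψ'v : ∀ g, ψ' g = (ψ : L → ℂ) (g ^ k') := fun g => by rw [hψ']
  have hirr' : IsIrrCharacter L ψ' := by
    rw [hψ']
    exact Cfsg.Agent.Lib.Helper76.GaloisConj.isIrrCharacter_pow ψ.2 k' (hN ▸ hk'cop)
  have hnt' : ∃ g, ψ' g ≠ 1 := by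
    obtain ⟨g₀, hg₀⟩ := hψnt
    exact ⟨g₀ ^ k, by rw [hψ'v, h2]; exact hg₀⟩
  have hne' : (∑ g : L, c.ξ g * conj (c.ξ g) * conj (ψ' g)) ≠ 0 := by
    have e1 : ∑ g : L, c.ξ g * conj (c.ξ g) * conj (ψ' g) =
        ∑ h : L, c.ξ (h ^ k) * conj (c.ξ (h ^ k)) * conj ((ψ : L → ℂ) h) := by
      rw [← Equiv.sum_comp e]
      refine Finset.sum_congr rfl fun h _ => ?_
      rw [he, hψ'v, h2]
    rw [e1]
    exact hψne
  have hB := c.hB ⟨ψ', hirr'⟩ hnt' hne'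
  have hsum : (∑ u : L, if u ∈ (c.P : Subgroup L) then ψ' u else 0) =
      ∑ u : L, if u ∈ (c.P : Subgroup L) then (ψ : L → ℂ) u else 0 := by
    rw [← Equiv.sum_comp e' (fun u => if u ∈ (c.P : Subgroup L) then (ψ : L → ℂ) u else 0)]
    refine Finset.sum_congr rfl fun u _ => ?_
    rw [he', hψ'v]
    have hiff : u ∈ (c.P : Subgroup L) ↔ u ^ k' ∈ (c.P : Subgroup L) :=
      ⟨fun h => pow_mem h k', fun h => by
        have := pow_mem h k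
        rwa [h1] at this⟩
    by_cases hu : u ∈ (c.P : Subgroup L)
    · rw [if_pos hu, if_pos (hiff.mp hu)]
    · rw [if_neg hu, if_neg (fun h => hu (hiff.mpr h))]
  have hone : ψ' 1 = (ψ : L → ℂ) 1 := by rw [hψ'v, one_pow]
  simp only at hB
  rw [hsum, hone] at hB
  exact hB

end Cfsg.Agent.Lib.Helper20.BrCHBSig
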