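import Mathlib
import Cfsg.Agent.Lib.Lead.BrHalfStmt
import Cfsg.Agent.Lib.CT.Wedderburn
import Cfsg.Agent.Lib.Helper76.GaloisConj

set_option autoImplicit false

namespace Cfsg.Agent.Lib.Helper20.BrCKapSum

open Cfsg Cfsg.Agent.Lib.Lead.BrHalf
open scoped ComplexConjugate Classical

universe u

theorem nonsq_mul {p : ℕ} [Fact p.Prime] {a b : ZMod p} (ha : ¬ IsSquare a)
    (hb : ¬ IsSquare b) : IsSquare (a * b) := by
  have ha0 : a ≠ 0 := by
    rintro rfl
    exact ha IsSquare.zero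
  have hb0 : b ≠ 0 := by
    rintro rfl
    exact hb IsSquare.zero
  have h1 := quadraticChar_neg_one_iff_not_isSquare.mpr ha
  have h2 := quadraticChar_neg_one_iff_not_isSquare.mpr hb
  rw [← quadraticChar_one_iff_isSquare (mul_ne_zero ha0 hb0), map_mul, h1, h2]
  norm_num

theorem sq_mul_nonsq {p : ℕ} [Fact p.Prime] {a b : ZMod p} (ha0 : a ≠ 0) (ha : IsSquare a)
    (hb : ¬ IsSquare b) : ¬ IsSquare (a * b) := by
  rintro ⟨t, ht⟩
  obtain ⟨s, hs⟩ := ha
  apply hb
  refine ⟨t / s, ?_⟩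
  rw [div_mul_div_comm, ← ht, ← hs, mul_div_cancel_left₀ b ha0]

theorem main (hCS : CS.{u}) (hCountP : CountP.{u}) (hPerClass : PerClass) (hPerDiff : PerDiff)
    (hXiCent : XiCent.{u}) : KapSum.{u} := by
  intro L _ _ p _ c k hk g hg
  obtain ⟨hkcop, hknsq, hkreg⟩ := hk
  have hpp : p.Prime := Fact.out
  have hp5 := c.hp5
  have hp2 : p ≠ 2 := by omega
  obtain ⟨A, hA⟩ : ∃ A, A = per p c.ζ 1 := ⟨_, rfl⟩
  obtain ⟨B, hB⟩ : ∃ B, B = per p c.ζ k := ⟨_, rfl⟩
  have hp1 : ¬ p ∣ 1 := by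
    intro h
    have := Nat.le_of_dvd one_pos h
    omega
  have hAB : (A - B) * conj (A - B) = (p : ℂ) := by
    have := hPerDiff p hp2 c.ζ c.hζ 1 k hp1 hknsq
    rwa [one_mul, ← hA, ← hB] at this
  have hABne : B ≠ A := by
    intro h
    rw [h, sub_self, zero_mul] at hAB
    exact (Nat.cast_ne_zero.mpr hpp.ne_zero) hAB.symm
  have hk0 : ((k : ℕ) : ZMod p) ≠ 0 := by
    intro h0
    apply hknsq
    rw [h0]
    exact IsSquare.zero
  have hpk : ¬ p ∣ k := fun h => hk0 ((ZMod.natCast_eq_zero_iff k p).mpr h)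
  have hξcl : IsClassFunction L c.ξ := Cfsg.Agent.Lib.CT.Wedderburn.char_isClassFunction
    (Cfsg.Agent.Lib.CT.Wedderburn.isCharacter_of_irr c.hξ)
  have hord : ∀ u h : L, orderOf (h * u * h⁻¹) = orderOf u := by
    intro u h
    have := orderOf_injective (MulAut.conj h).toMonoidHom (MulAut.conj h).injective u
    simpa using this
  have hkapcl : IsClassFunction L c.kap := by
    intro u h
    unfold Ctx.kap
    rw [hord, hξcl u h]
  have hirrσ : IsIrrCharacter L (fun g => c.ξ (g ^ k)) :=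
    Cfsg.Agent.Lib.Helper76.GaloisConj.isIrrCharacter_pow c.hξ k hkcop
  have h1 := hCS c.ξ c.hξ c.kap hkapcl g
  have h2 := hCS (fun g => c.ξ (g ^ k)) hirrσ c.kap hkapcl g
  simp only [one_pow, hkreg g hg] at h2
  have hsum : ∑ u : L, c.kap u * c.D k (g * u) =
      c.ξ g / c.ξ 1 * ∑ u : L, c.kap u * (c.ξ u - c.ξ (u ^ k)) := by
    unfold Ctx.D
    simp only [mul_sub, Finset.sum_sub_distrib]
    rw [h1, h2]
  rw [hsum]
  obtain ⟨F', hF'⟩ : ∃ F' : L → ℂ,
      F' = fun u => (if c.ξ u = A then 1 else -1) * (c.ξ u - c.ξ (u ^ k)) := ⟨_, rfl⟩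
  have hF'cl : IsClassFunction L F' := by
    intro u h
    rw [hF']
    beta_reduce
    rw [hξcl u h, conj_pow, hξcl (u ^ k) h]
  have hinner : ∑ u : L, c.kap u * (c.ξ u - c.ξ (u ^ k)) =
      ∑ u : L, if orderOf u = p then F' u else 0 := by
    refine Finset.sum_congr rfl fun u _ => ?_
    unfold Ctx.kap
    rw [hF', ← hA]
    beta_reduce
    by_cases ho : orderOf u = p
    · rw [if_pos ho, if_pos ho]
    · rw [if_neg ho, if_neg ho, zero_mul]
  rw [hinner, hCountP p c F' hF'cl]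
  have hval : ∀ a ∈ Finset.Ico 1 p, F' (c.x ^ a) = A - B := by
    intro a ha
    rw [Finset.mem_Ico] at ha
    have hpa : ¬ p ∣ a := fun h => by
      have := Nat.le_of_dvd (by omega) h
      omega
    have ha0 : ((a : ℕ) : ZMod p) ≠ 0 := fun h => hpa ((ZMod.natCast_eq_zero_iff a p).mp h)
    rw [hF']
    beta_reduce
    rw [← pow_mul, c.hres a, c.hres (a * k)]
    have hpak : ¬ p ∣ a * k := fun h => (hpp.dvd_mul.mp h).elim hpa hpk
    by_cases hsq : IsSquare ((a : ℕ) : ZMod p)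
    · have e1 : per p c.ζ a = A := by
        rw [hA]; exact (hPerClass p c.ζ c.hζ a k hpa).1 hsq
      have hnsq : ¬ IsSquare (((a * k : ℕ) : ℕ) : ZMod p) := by
        rw [Nat.cast_mul]; exact sq_mul_nonsq ha0 hsq hknsq
      have e2 : per p c.ζ (a * k) = B := by
        rw [hB]; exact (hPerClass p c.ζ c.hζ (a * k) k hpak).2 hnsq hknsq
      rw [e1, e2, if_pos rfl, one_mul]
    · have e1 : per p c.ζ a = B := by
        rw [hB]; exact (hPerClass p c.ζ c.hζ a k hpa).2 hsq hknsq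
      have hsq' : IsSquare (((a * k : ℕ) : ℕ) : ZMod p) := by
        rw [Nat.cast_mul]; exact nonsq_mul hsq hknsq
      have e2 : per p c.ζ (a * k) = A := by
        rw [hA]; exact (hPerClass p c.ζ c.hζ (a * k) k hpak).1 hsq'
      rw [e1, e2, if_neg hABne]; ring
  rw [Finset.sum_congr rfl hval, Finset.sum_const, Nat.card_Ico, nsmul_eq_mul]
  obtain ⟨hξ1, -⟩ := hXiCent p c
  have hdeg := c.hdeg
  have he : (p - 1 : ℕ) = 2 * c.e := by unfold Ctx.e; omega
  have he0 : (c.e : ℂ) ≠ 0 := by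
    have : c.e ≠ 0 := by unfold Ctx.e; omega
    exact Nat.cast_ne_zero.mpr this
  rw [hξ1, he, ← hA, ← hB]
  push_cast
  field_simp

end Cfsg.Agent.Lib.Helper20.BrCKapSum
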