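import Mathlib

set_option autoImplicit false

namespace Cfsg.Agent.Lib.Helper20.Dihedral

variable {G : Type*} [Group G]

lemma inv_eq_self {z : G} (hz : z * z = 1) : z⁻¹ = z := inv_eq_of_mul_eq_one_left hz

/-- an involution inverts its product with another involution -/
lemma conj_mul_left {z w : G} (hz : z * z = 1) (hw : w * w = 1) : z * (z * w) * z⁻¹ = (z * w)⁻¹ := by
  rw [inv_eq_self hz, mul_inv_rev, inv_eq_self hz, inv_eq_self hw, ← mul_assoc, hz, one_mul]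

lemma conj_mul_right {z w : G} (hz : z * z = 1) (hw : w * w = 1) : w * (z * w) * w⁻¹ = (z * w)⁻¹ := by
  rw [inv_eq_self hw, mul_inv_rev, inv_eq_self hz, inv_eq_self hw, mul_assoc, mul_assoc, hw, mul_one]

lemma conj_pow_of_inv {z r : G} (h : z * r * z⁻¹ = r⁻¹) (n : ℕ) : z * r ^ n * z⁻¹ = (r ^ n)⁻¹ := by
  rw [← conj_pow, h, inv_pow]

/-- if `z` is an involution inverting `r` then `z r⁻ʲ = rʲ z` -/
lemma mul_inv_pow_eq {z r : G} (hz : z * z = 1) (h : z * r * z⁻¹ = r⁻¹) (j : ℕ) :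
    z * (r ^ j)⁻¹ = r ^ j * z := by
  have h3 := conj_pow_of_inv h j
  calc z * (r ^ j)⁻¹ = z * (z * r ^ j * z⁻¹) := by rw [h3]
    _ = (z * z) * r ^ j * z⁻¹ := by group
    _ = r ^ j * z := by rw [hz, one_mul, inv_eq_self hz]

/-- In the group generated by two involutions `z`, `w`, every element `(z w)^k z` is conjugate
to `z` or to `w`. -/
lemma pow_mul_conj {z w : G} (hz : z * z = 1) (hw : w * w = 1) (k : ℕ) :
    (∃ h : G, h * z * h⁻¹ = (z * w) ^ k * z) ∨ (∃ h : G, h * w * h⁻¹ = (z * w) ^ k * z) := by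
  set r := z * w with hr
  have hzr : z * r * z⁻¹ = r⁻¹ := conj_mul_left hz hw
  rcases Nat.even_or_odd' k with ⟨j, hj | hj⟩
  · left
    refine ⟨r ^ j, ?_⟩
    rw [mul_assoc, mul_inv_pow_eq hz hzr, ← mul_assoc, ← pow_add, hj]
    congr 2; omega
  · right
    refine ⟨r ^ j * z, ?_⟩
    calc r ^ j * z * w * (r ^ j * z)⁻¹
        = r ^ j * (z * w) * (z⁻¹ * (r ^ j)⁻¹) := by group
      _ = r ^ j * r * (z * (r ^ j)⁻¹) := by rw [← hr, inv_eq_self hz]
      _ = r ^ j * r * (r ^ j * z) := by rw [mul_inv_pow_eq hz hzr]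
      _ = r ^ (j + 1 + j) * z := by rw [pow_add, pow_succ]; group
      _ = (z * w) ^ k * z := by rw [hj]; congr 2; omega

end Cfsg.Agent.Lib.Helper20.Dihedral
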