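import Mathlib
import Cfsg.Prelude.Def_Classical
import Cfsg.Prelude.Def_GeometricClasses

set_option autoImplicit false

/-!
Form-free versions of the `x * x = -1` pieces (S5988 NEGSQFIXA / NEGSQFIXB2) for an arbitrary
function `Q : (ι → F) → F` satisfying the expansion identity
`Q (a • v + b • w) = a * a * Q v + b * b * Q w + a * b * polar Q v w`,
plus that identity for the standard plus and minus forms.
-/

universe u

open scoped Matrix

namespace Cfsg.Agent.Lib.Helper20.NegSqGenQ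

variable {F : Type u} [Field F] {ι : Type} [Fintype ι] [DecidableEq ι]

/-- the expansion identity -/
def Comb (Q : (ι → F) → F) : Prop :=
  ∀ (a b : F) (v w : ι → F),
    Q (a • v + b • w) = a * a * Q v + b * b * Q w + a * b * QuadraticMap.polar Q v w

theorem comb_smul {Q : (ι → F) → F} (hQ : Comb Q) (c : F) (v : ι → F) :
    Q (c • v) = c * c * Q v := by
  have h := hQ c 0 v v
  rw [zero_smul, add_zero] at h
  rw [h]; ring

theorem comb_zero {Q : (ι → F) → F} (hQ : Comb Q) : Q 0 = 0 := by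
  have h := comb_smul hQ 0 (0 : ι → F)
  rw [zero_smul] at h
  rw [h]; ring

theorem polar_self {Q : (ι → F) → F} (hQ : Comb Q) (w : ι → F) :
    QuadraticMap.polar Q w w = 2 * Q w := by
  have h := hQ 1 1 w w
  have h2 : (1 : F) • w + (1 : F) • w = (2 : F) • w := by rw [one_smul, two_smul]
  rw [h2, comb_smul hQ] at h
  linear_combination -h

theorem polar_smul_right {Q : (ι → F) → F} (hQ : Comb Q) (c : F) (u w : ι → F) :
    QuadraticMap.polar Q u (c • w) = c * QuadraticMap.polar Q u w := by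
  have h := hQ 1 c u w
  rw [one_smul] at h
  have e : QuadraticMap.polar Q u (c • w) = Q (u + c • w) - Q u - Q (c • w) := rfl
  rw [e, comb_smul hQ, h]
  ring

theorem polar_iso {Q : (ι → F) → F} (M : Matrix ι ι F)
    (hM : ∀ v : ι → F, Q (M *ᵥ v) = Q v) (u w : ι → F) :
    QuadraticMap.polar Q (M *ᵥ u) (M *ᵥ w) = QuadraticMap.polar Q u w := by
  unfold QuadraticMap.polar
  rw [← Matrix.mulVec_add, hM, hM, hM]

/-- `q ≡ 3 (mod 4)`, `M * M = -1`, `M` an isometry, `Y` invariant nondegenerate nonzero: an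
invariant anisotropic nondegenerate plane `span {v, M v}` inside `Y`. -/
theorem gen_step [Fintype F] (hq : Fintype.card F % 4 = 3) {Q : (ι → F) → F} (hQ : Comb Q)
    (M : Matrix ι ι F) (hiso : ∀ v : ι → F, Q (M *ᵥ v) = Q v) (hMM : M * M = -1)
    (Y : Submodule F (ι → F)) (hY : Cfsg.Geo.IsNondegenerateOn (QuadraticMap.polar Q) Y)
    (hYSt : Y.map (Matrix.toLin' M) ≤ Y) (hYpos : 0 < Module.finrank F ↥Y) :
    ∃ Pl : Submodule F (ι → F), Pl ≤ Y ∧ Pl.map (Matrix.toLin' M) ≤ Pl ∧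
      Cfsg.Geo.IsNondegenerateOn (QuadraticMap.polar Q) Pl ∧
      Module.finrank F ↥Pl = 2 ∧ (∀ w ∈ Pl, Q w = 0 → w = 0) := by
  classical
  have hnsq : ¬ IsSquare (-1 : F) := by
    rw [FiniteField.isSquare_neg_one_iff]
    omega
  have h2 : (2 : F) ≠ 0 := by
    apply Ring.two_ne_zero
    intro h
    have := FiniteField.even_card_iff_char_two.mp h
    omega
  have hMMv : ∀ v : ι → F, M *ᵥ (M *ᵥ v) = -v := by
    intro v
    rw [Matrix.mulVec_mulVec, hMM, Matrix.neg_mulVec, Matrix.one_mulVec]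
  have hYstab : ∀ y ∈ Y, M *ᵥ y ∈ Y := by
    intro y hy
    have := hYSt (Submodule.mem_map_of_mem hy)
    rwa [Matrix.toLin'_apply] at this
  obtain ⟨⟨w0, hw0Y⟩, hw0⟩ := Module.finrank_pos_iff_exists_ne_zero.mp hYpos
  have hw0' : w0 ≠ 0 := fun h => hw0 (Subtype.ext h)
  obtain ⟨v, hvY, hQv⟩ : ∃ v ∈ Y, Q v ≠ 0 := by
    by_contra hcon
    push_neg at hcon
    obtain ⟨⟨y, hyY, hy⟩, -⟩ := hY w0 hw0Y hw0'
    apply hy
    unfold QuadraticMap.polar
    rw [hcon _ (Y.add_mem hyY hw0Y), hcon _ hyY, hcon _ hw0Y]; ring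
  have hQMv : Q (M *ᵥ v) = Q v := hiso v
  have hB0 : QuadraticMap.polar Q v (M *ᵥ v) = 0 := by
    have h1 := polar_iso M hiso v (M *ᵥ v)
    rw [hMMv] at h1
    have h3 : -v = (-1 : F) • v := by rw [neg_one_smul]
    rw [h3, polar_smul_right hQ] at h1
    have h4 : QuadraticMap.polar Q (M *ᵥ v) v = QuadraticMap.polar Q v (M *ᵥ v) := by
      unfold QuadraticMap.polar; rw [add_comm]; ring
    rw [h4] at h1
    have h5 : (2 : F) * QuadraticMap.polar Q v (M *ᵥ v) = 0 := by
      linear_combination -h1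
    rcases mul_eq_zero.mp h5 with h | h
    · exact absurd h h2
    · exact h
  have hQab : ∀ a b : F, Q (a • v + b • (M *ᵥ v)) = (a * a + b * b) * Q v := by
    intro a b
    rw [hQ, hQMv, hB0]; ring
  have hab0 : ∀ a b : F, a * a + b * b = 0 → a = 0 ∧ b = 0 := by
    intro a b hab
    by_cases hb : b = 0
    · subst hb
      simp at hab
      exact ⟨hab, rfl⟩
    · exfalso
      apply hnsq
      have : (a / b) * (a / b) = -1 := by
        rw [div_mul_div_comm, div_eq_iff (mul_ne_zero hb hb)]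
        linear_combination hab
      exact ⟨a / b, this.symm⟩
  have haniso : ∀ a b : F, Q (a • v + b • (M *ᵥ v)) = 0 → a = 0 ∧ b = 0 := by
    intro a b h
    rw [hQab] at h
    rcases mul_eq_zero.mp h with h' | h'
    · exact hab0 a b h'
    · exact absurd h' hQv
  have hmem : ∀ w, w ∈ Submodule.span F {v, M *ᵥ v} ↔ ∃ a b : F, a • v + b • (M *ᵥ v) = w :=
    fun w => Submodule.mem_span_pair
  have hPlY : Submodule.span F {v, M *ᵥ v} ≤ Y := by
    rw [Submodule.span_le]
    intro y hy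
    rcases hy with rfl | rfl
    · exact hvY
    · exact hYstab _ hvY
  have hani : ∀ w ∈ Submodule.span F {v, M *ᵥ v}, Q w = 0 → w = 0 := by
    intro w hw hQw
    obtain ⟨a, b, rfl⟩ := (hmem w).mp hw
    obtain ⟨ha, hb⟩ := haniso a b hQw
    rw [ha, hb, zero_smul, zero_smul, add_zero]
  refine ⟨Submodule.span F {v, M *ᵥ v}, hPlY, ?_, ?_, ?_, hani⟩
  · rw [Submodule.map_span, Submodule.span_le, Set.image_pair]
    intro y hy
    rcases hy with rfl | rfl
    · rw [Matrix.toLin'_apply]; exact Submodule.subset_span (by simp)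
    · rw [Matrix.toLin'_apply, hMMv]
      exact Submodule.neg_mem _ (Submodule.subset_span (by simp))
  · intro w hw hw0
    have hQw : Q w ≠ 0 := fun h => hw0 (hani w hw h)
    have hww : QuadraticMap.polar Q w w ≠ 0 := by
      rw [polar_self hQ]; exact mul_ne_zero h2 hQw
    exact ⟨⟨w, hw, hww⟩, ⟨w, hw, hww⟩⟩
  · have hli : LinearIndependent F ![v, M *ᵥ v] := by
      rw [LinearIndependent.pair_iff]
      intro s t hst
      apply haniso s t
      rw [hst]
      exact comb_zero hQ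
    have hr : Set.range ![v, M *ᵥ v] = {v, M *ᵥ v} := Matrix.range_cons_cons_empty _ _ _
    rw [← hr, finrank_span_eq_card hli]; simp

/-- an anisotropic plane is not of plus type -/
theorem not_plus_of_aniso {Q : (ι → F) → F} (Pl : Submodule F (ι → F))
    (h2 : Module.finrank F ↥Pl = 2) (hani : ∀ w ∈ Pl, Q w = 0 → w = 0) :
    ¬ Cfsg.Geo.IsPlusTypeOn Q Pl := by
  rintro ⟨U, hU, hUts, hUd⟩
  have hU1 : 0 < Module.finrank F ↥U := by rw [h2] at hUd; omega
  obtain ⟨⟨w, hwU⟩, hw⟩ := Module.finrank_pos_iff_exists_ne_zero.mp hU1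
  exact hw (Subtype.ext (hani w (hU hwU) (hUts w hwU)))

/-- `q ≡ 1 (mod 4)`, `M * M = -1`, `M` an isometry, `W` invariant, totally singular subspaces of
`W` of at most half the dimension: `W` is of plus type. -/
theorem gen_fixA [Fintype F] (hq : Fintype.card F % 4 = 1) {Q : (ι → F) → F}
    (hsmul : ∀ (c : F) (v : ι → F), Q (c • v) = c * c * Q v)
    (M : Matrix ι ι F) (hiso : ∀ v : ι → F, Q (M *ᵥ v) = Q v) (hMM : M * M = -1)
    (W : Submodule F (ι → F)) (hSt : W.map (Matrix.toLin' M) ≤ W)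
    (hHalf : ∀ U : Submodule F (ι → F), U ≤ W → (∀ u ∈ U, Q u = 0) →
      2 * Module.finrank F ↥U ≤ Module.finrank F ↥W) :
    Cfsg.Geo.IsPlusTypeOn Q W := by
  classical
  have hsq : IsSquare (-1 : F) := by
    rw [FiniteField.isSquare_neg_one_iff]
    omega
  obtain ⟨i0, hi0⟩ := hsq
  have hii : i0 * i0 = -1 := hi0.symm
  have h2 : (2 : F) ≠ 0 := by
    apply Ring.two_ne_zero
    intro h
    have := FiniteField.even_card_iff_char_two.mp h
    omega
  have hMMv : ∀ v : ι → F, M *ᵥ (M *ᵥ v) = -v := by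
    intro v
    rw [Matrix.mulVec_mulVec, hMM, Matrix.neg_mulVec, Matrix.one_mulVec]
  have hStab : ∀ w ∈ W, M *ᵥ w ∈ W := by
    intro w hw
    have := hSt (Submodule.mem_map_of_mem hw)
    rwa [Matrix.toLin'_apply] at this
  let eig : F → Submodule F (ι → F) := fun c =>
    { carrier := {v | M *ᵥ v = c • v}
      add_mem' := by
        intro a b ha hb
        simp only [Set.mem_ofPred_eq] at ha hb ⊢
        rw [Matrix.mulVec_add, ha, hb, smul_add]
      zero_mem' := by simp
      smul_mem' := by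
        intro t a ha
        simp only [Set.mem_ofPred_eq] at ha ⊢
        rw [Matrix.mulVec_smul, ha, smul_comm] }
  have mem_eig : ∀ (c : F) (v : ι → F), v ∈ eig c ↔ M *ᵥ v = c • v := fun c v => Iff.rfl
  have eig_ts : ∀ c : F, c * c = -1 → ∀ v ∈ eig c, Q v = 0 := by
    intro c hc v hv
    rw [mem_eig] at hv
    have h1 := hiso v
    rw [hv, hsmul, hc] at h1
    have h3 : (2 : F) * Q v = 0 := by linear_combination -h1
    rcases mul_eq_zero.mp h3 with h | h
    · exact absurd h h2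
    · exact h
  have hts1 : ∀ v ∈ W ⊓ eig i0, Q v = 0 := fun v hv => eig_ts i0 hii v hv.2
  have hts2 : ∀ v ∈ W ⊓ eig (-i0), Q v = 0 :=
    fun v hv => eig_ts (-i0) (by rw [neg_mul_neg, hii]) v hv.2
  have hsup : (W ⊓ eig i0) ⊔ (W ⊓ eig (-i0)) = W := by
    apply le_antisymm (sup_le inf_le_left inf_le_left)
    intro v hvW
    have hMv := hStab v hvW
    have ha : (2 : F)⁻¹ • (v - i0 • (M *ᵥ v)) ∈ eig i0 := by
      apply Submodule.smul_mem
      rw [mem_eig, Matrix.mulVec_sub, Matrix.mulVec_smul, hMMv, smul_sub, smul_smul, hii]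
      simp only [smul_neg, neg_smul, one_smul, sub_neg_eq_add]
      rw [add_comm]
    have hb : (2 : F)⁻¹ • (v + i0 • (M *ᵥ v)) ∈ eig (-i0) := by
      apply Submodule.smul_mem
      rw [mem_eig, Matrix.mulVec_add, Matrix.mulVec_smul, hMMv, smul_add, smul_smul,
        neg_mul, hii]
      simp only [smul_neg, neg_smul, one_smul, neg_neg]
      rw [add_comm]
    have haW : (2 : F)⁻¹ • (v - i0 • (M *ᵥ v)) ∈ W :=
      W.smul_mem _ (W.sub_mem hvW (W.smul_mem _ hMv))
    have hbW : (2 : F)⁻¹ • (v + i0 • (M *ᵥ v)) ∈ W :=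
      W.smul_mem _ (W.add_mem hvW (W.smul_mem _ hMv))
    have hv : v = (2 : F)⁻¹ • (v - i0 • (M *ᵥ v)) + (2 : F)⁻¹ • (v + i0 • (M *ᵥ v)) := by
      rw [← smul_add]
      have : v - i0 • (M *ᵥ v) + (v + i0 • (M *ᵥ v)) = (2 : F) • v := by
        rw [two_smul]; abel
      rw [this, smul_smul, inv_mul_cancel₀ h2, one_smul]
    rw [hv]
    exact Submodule.add_mem _ (Submodule.mem_sup_left ⟨haW, ha⟩)
      (Submodule.mem_sup_right ⟨hbW, hb⟩)
  have hf1 : 2 * Module.finrank F ↥(W ⊓ eig i0) ≤ Module.finrank F ↥W :=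
    hHalf (W ⊓ eig i0) inf_le_left hts1
  have hf2 : 2 * Module.finrank F ↥(W ⊓ eig (-i0)) ≤ Module.finrank F ↥W :=
    hHalf (W ⊓ eig (-i0)) inf_le_left hts2
  have hle : Module.finrank F ↥W ≤
      Module.finrank F ↥(W ⊓ eig i0) + Module.finrank F ↥(W ⊓ eig (-i0)) := by
    have h := Submodule.finrank_add_le_finrank_add_finrank (W ⊓ eig i0) (W ⊓ eig (-i0))
    rw [hsup] at h
    exact h
  have hgoal : 2 * Module.finrank F ↥(W ⊓ eig i0) = Module.finrank F ↥W := by omega
  exact ⟨W ⊓ eig i0, inf_le_left, hts1, hgoal⟩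

/-- the expansion identity for the standard plus form -/
theorem comb_plus (d : ℕ) : Comb (Cfsg.quadFormPlus d F) := by
  intro a b v w
  unfold QuadraticMap.polar Cfsg.quadFormPlus
  simp only [Pi.add_apply, Pi.smul_apply, smul_eq_mul]
  simp only [Finset.mul_sum, ← Finset.sum_add_distrib, ← Finset.sum_sub_distrib]
  apply Finset.sum_congr rfl
  intro i _
  ring

/-- the expansion identity for the standard minus form -/
theorem comb_minus (d : ℕ) (a0 b0 : F) : Comb (Cfsg.quadFormMinus d F a0 b0) := by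
  intro a b v w
  unfold QuadraticMap.polar Cfsg.quadFormMinus
  simp only [Pi.add_apply, Pi.smul_apply, smul_eq_mul]
  have hs : ∑ i : Fin d, (a * v (Sum.inl (Sum.inl i)) + b * w (Sum.inl (Sum.inl i))) *
      (a * v (Sum.inl (Sum.inr i)) + b * w (Sum.inl (Sum.inr i))) =
      a * a * ∑ i : Fin d, v (Sum.inl (Sum.inl i)) * v (Sum.inl (Sum.inr i)) +
      b * b * ∑ i : Fin d, w (Sum.inl (Sum.inl i)) * w (Sum.inl (Sum.inr i)) +
      a * b * (∑ i : Fin d, (v (Sum.inl (Sum.inl i)) + w (Sum.inl (Sum.inl i))) *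
        (v (Sum.inl (Sum.inr i)) + w (Sum.inl (Sum.inr i))) -
        ∑ i : Fin d, v (Sum.inl (Sum.inl i)) * v (Sum.inl (Sum.inr i)) -
        ∑ i : Fin d, w (Sum.inl (Sum.inl i)) * w (Sum.inl (Sum.inr i))) := by
    simp only [Finset.mul_sum, ← Finset.sum_add_distrib, ← Finset.sum_sub_distrib]
    apply Finset.sum_congr rfl
    intro i _
    ring
  rw [hs]
  ring

end Cfsg.Agent.Lib.Helper20.NegSqGenQ
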