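import Mathlib
import Cfsg.Agent.Lib.Helper41.EMStmt
import Cfsg.Agent.Lib.Helper41.TMStmt
import Cfsg.Agent.Lib.Helper20.NegSqGenQ

set_option autoImplicit false

/-!
S5990, piece NEGSQFIXB2 (minus form): `q ≡ 3 (mod 4)`, `x` an isometry of the standard minus form
with `x * x = -1`, `m ≡ 2 (mod 4)`, `m ≤ 2 d`: `x` fixes an elliptic `m`-space.
-/

universe u

open scoped Matrix

namespace Cfsg.Agent.Lib.Helper20.EMNEGSQFIXB2

open Cfsg Cfsg.Agent.Lib.Helper41.EMStmt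
open Cfsg.Agent.Lib.Helper45.OMiStmt (M Aniso FxM NDegM StabM)
open Cfsg.Agent.Lib.Helper41.TMTwoStmt (PlusM)
open Cfsg.Agent.Lib.Helper20.NegSqGenQ

theorem step (hPerp : Cfsg.Agent.Lib.Helper41.TMStmt.Perp.{u}) (F : Type u) [Field F] [Fintype F]
    (a₀ b₀ : F) (hab : Aniso a₀ b₀)
    (hq : Fintype.card F % 4 = 3) (d : ℕ) (hd : 1 ≤ d) (x : Matrix.GeneralLinearGroup (M d) F)
    (hx : x ∈ Cfsg.isometryGroup F (Cfsg.quadFormMinus (d - 1) F a₀ b₀))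
    (hx2 : (x : Matrix (M d) (M d) F) * (x : Matrix (M d) (M d) F) = -1)
    (W : Submodule F (M d → F)) (hW : NDegM d F a₀ b₀ W)
    (hSt : StabM (x : Matrix (M d) (M d) F) W)
    (hlt : Module.finrank F ↥W < 2 * d) :
    ∃ Pl : Submodule F (M d → F), StabM (x : Matrix (M d) (M d) F) Pl ∧ NDegM d F a₀ b₀ Pl ∧
      Module.finrank F ↥Pl = 2 ∧
      (∀ u ∈ W, ∀ v ∈ Pl,
        QuadraticMap.polar (Cfsg.quadFormMinus (d - 1) F a₀ b₀) u v = 0) ∧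
      (∀ w ∈ Pl, Cfsg.quadFormMinus (d - 1) F a₀ b₀ w = 0 → w = 0) := by
  classical
  have hiso : ∀ v : M d → F,
      Cfsg.quadFormMinus (d - 1) F a₀ b₀ ((x : Matrix (M d) (M d) F) *ᵥ v) =
        Cfsg.quadFormMinus (d - 1) F a₀ b₀ v := fun v => hx v v
  obtain ⟨Y, hWY, hY, hWYbot, hdim, hYst⟩ := hPerp F a₀ b₀ hab d hd W hW
  have hYSt : StabM (x : Matrix (M d) (M d) F) Y := hYst x hx hSt
  have hYpos : 0 < Module.finrank F ↥Y := by omega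
  obtain ⟨Pl, hPlY, hPlSt, hPlN, hPl2, hani⟩ :=
    gen_step hq (comb_minus (d - 1) a₀ b₀) (x : Matrix (M d) (M d) F) hiso hx2 Y hY hYSt hYpos
  exact ⟨Pl, hPlSt, hPlN, hPl2, fun u hu y hy => hWY u hu y (hPlY hy), hani⟩

theorem chain (hPerp : Cfsg.Agent.Lib.Helper41.TMStmt.Perp.{u})
    (hOrth : Cfsg.Agent.Lib.Helper41.TMStmt.OrthSum.{u}) (F : Type u) [Field F] [Fintype F]
    (a₀ b₀ : F) (hab : Aniso a₀ b₀)
    (hq : Fintype.card F % 4 = 3) (d : ℕ) (hd : 1 ≤ d) (x : Matrix.GeneralLinearGroup (M d) F)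
    (hx : x ∈ Cfsg.isometryGroup F (Cfsg.quadFormMinus (d - 1) F a₀ b₀))
    (hx2 : (x : Matrix (M d) (M d) F) * (x : Matrix (M d) (M d) F) = -1) :
    ∀ k : ℕ, 2 * k ≤ 2 * d → ∃ W : Submodule F (M d → F),
      StabM (x : Matrix (M d) (M d) F) W ∧ NDegM d F a₀ b₀ W ∧
        Module.finrank F ↥W = 2 * k := by
  intro k
  induction k with
  | zero =>
    intro _
    refine ⟨⊥, ?_, ?_, by simp⟩
    · show (⊥ : Submodule F (M d → F)).map _ ≤ ⊥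
      rw [Submodule.map_bot]
    · intro w hw hw0
      exact absurd ((Submodule.mem_bot F).mp hw) hw0
  | succ k ih =>
    intro hk
    obtain ⟨W, hSt, hW, hfr⟩ := ih (by omega)
    obtain ⟨Pl, hPlSt, hPlN, hPl2, hperp, -⟩ :=
      step hPerp F a₀ b₀ hab hq d hd x hx hx2 W hW hSt (by rw [hfr]; omega)
    obtain ⟨hN, -, hfin⟩ := hOrth F a₀ b₀ hab d W Pl hW hPlN hperp
    refine ⟨W ⊔ Pl, ?_, hN, by rw [hfin, hfr, hPl2]; ring⟩
    show (W ⊔ Pl).map _ ≤ W ⊔ Pl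
    rw [Submodule.map_sup]
    exact sup_le_sup hSt hPlSt

theorem main (hPerp : Cfsg.Agent.Lib.Helper41.TMStmt.Perp.{u})
    (hOrth : Cfsg.Agent.Lib.Helper41.TMStmt.OrthSum.{u})
    (hCancel : CancelM.{u})
    (hB1 : NegSqFixB1.{u}) : NegSqFixB2.{u} := by
  intro F _ _ a₀ b₀ hab hq d m hm hmd x hx hx2
  have hd : 1 ≤ d := by omega
  obtain ⟨W, hSt, hW, hfr⟩ :=
    chain hPerp hOrth F a₀ b₀ hab hq d hd x hx hx2 ((m - 2) / 2) (by omega)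
  have hfr' : Module.finrank F ↥W = m - 2 := by rw [hfr]; omega
  obtain ⟨Pl, hPlSt, hPlN, hPl2, hperp, hani⟩ :=
    step hPerp F a₀ b₀ hab hq d hd x hx hx2 W hW hSt (by rw [hfr']; omega)
  obtain ⟨hN, -, hfin⟩ := hOrth F a₀ b₀ hab d W Pl hW hPlN hperp
  have hWplus : PlusM d F a₀ b₀ W :=
    hB1 F a₀ b₀ hab hq d x hx hx2 W hW hSt (by rw [hfr']; omega)
  have hdimm : Module.finrank F ↥(W ⊔ Pl) = m := by rw [hfin, hfr', hPl2]; omega
  refine ⟨W ⊔ Pl, ⟨hdimm, hN, ?_⟩, ?_⟩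
  · intro hplus
    have hPlplus : PlusM d F a₀ b₀ Pl := hCancel F a₀ b₀ hab d W Pl hW hPlN hperp hplus hWplus
    exact not_plus_of_aniso Pl hPl2 hani hPlplus
  · show (W ⊔ Pl).map _ ≤ W ⊔ Pl
    rw [Submodule.map_sup]
    exact sup_le_sup hSt hPlSt

end Cfsg.Agent.Lib.Helper20.EMNEGSQFIXB2
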