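import Mathlib
import Cfsg.Agent.Lib.Helper45.EPStmt
import Cfsg.Agent.Lib.Helper44.TPStmt

set_option autoImplicit false

/-!
S5988, piece NEGSQFIXB2: `q ≡ 3 (mod 4)`, `x` an isometry of the standard plus form with
`x * x = -1`, `m ≡ 2 (mod 4)`, `m ≤ 2 d`: `x` fixes an elliptic `m`-space.
-/

universe u

open scoped Matrix

namespace Cfsg.Agent.Lib.Helper20.EPNEGSQFIXB2

open Cfsg Cfsg.Agent.Lib.Helper45.EPStmt
open Cfsg.Agent.Lib.Helper44.TPStmt (J NDeg Stab Plus TSub)

/-- the form is homogeneous of degree two -/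
theorem q_smul (d : ℕ) (F : Type u) [Field F] (c : F) (v : J d → F) :
    Cfsg.quadFormPlus d F (c • v) = c * c * Cfsg.quadFormPlus d F v := by
  unfold Cfsg.quadFormPlus
  rw [Finset.mul_sum]
  apply Finset.sum_congr rfl
  intro i _
  simp only [Pi.smul_apply, smul_eq_mul]
  ring

/-- expansion of the form on a combination -/
theorem q_comb (d : ℕ) (F : Type u) [Field F] (a b : F) (v w : J d → F) :
    Cfsg.quadFormPlus d F (a • v + b • w) = a * a * Cfsg.quadFormPlus d F v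
      + b * b * Cfsg.quadFormPlus d F w
      + a * b * QuadraticMap.polar (Cfsg.quadFormPlus d F) v w := by
  unfold QuadraticMap.polar Cfsg.quadFormPlus
  simp only [Pi.add_apply, Pi.smul_apply, smul_eq_mul]
  simp only [Finset.mul_sum, ← Finset.sum_add_distrib, ← Finset.sum_sub_distrib]
  apply Finset.sum_congr rfl
  intro i _
  ring

theorem polar_self (d : ℕ) (F : Type u) [Field F] (w : J d → F) :
    QuadraticMap.polar (Cfsg.quadFormPlus d F) w w = 2 * Cfsg.quadFormPlus d F w := by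
  have h := q_comb d F 1 1 w w
  have h2 : (1 : F) • w + (1 : F) • w = (2 : F) • w := by rw [one_smul, two_smul]
  rw [h2, q_smul] at h
  linear_combination -h

theorem polar_smul_right (d : ℕ) (F : Type u) [Field F] (c : F) (u w : J d → F) :
    QuadraticMap.polar (Cfsg.quadFormPlus d F) u (c • w) =
      c * QuadraticMap.polar (Cfsg.quadFormPlus d F) u w := by
  have h := q_comb d F 1 c u w
  rw [one_smul] at h
  have e : QuadraticMap.polar (Cfsg.quadFormPlus d F) u (c • w) =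
      Cfsg.quadFormPlus d F (u + c • w) - Cfsg.quadFormPlus d F u
        - Cfsg.quadFormPlus d F (c • w) := rfl
  rw [e, q_smul, h]
  ring

theorem polar_iso {d : ℕ} {F : Type u} [Field F] (M : Matrix (J d) (J d) F)
    (hM : ∀ v : J d → F, Cfsg.quadFormPlus d F (M *ᵥ v) = Cfsg.quadFormPlus d F v)
    (u w : J d → F) :
    QuadraticMap.polar (Cfsg.quadFormPlus d F) (M *ᵥ u) (M *ᵥ w) =
      QuadraticMap.polar (Cfsg.quadFormPlus d F) u w := by
  unfold QuadraticMap.polar
  rw [← Matrix.mulVec_add, hM, hM, hM]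

theorem step (hPerp : Cfsg.Agent.Lib.Helper44.TPStmt.Perp.{u}) (F : Type u) [Field F] [Fintype F]
    (hq : Fintype.card F % 4 = 3) (d : ℕ) (x : Matrix.GeneralLinearGroup (J d) F)
    (hx : x ∈ Cfsg.isometryGroup F (Cfsg.quadFormPlus d F))
    (hx2 : (x : Matrix (J d) (J d) F) * (x : Matrix (J d) (J d) F) = -1)
    (W : Submodule F (J d → F)) (hW : NDeg d F W) (hSt : Stab (x : Matrix (J d) (J d) F) W)
    (hlt : Module.finrank F ↥W < 2 * d) :
    ∃ Pl : Submodule F (J d → F), Stab (x : Matrix (J d) (J d) F) Pl ∧ NDeg d F Pl ∧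
      Module.finrank F ↥Pl = 2 ∧
      (∀ u ∈ W, ∀ v ∈ Pl, QuadraticMap.polar (Cfsg.quadFormPlus d F) u v = 0) ∧
      (∀ w ∈ Pl, Cfsg.quadFormPlus d F w = 0 → w = 0) := by
  classical
  have hnsq : ¬ IsSquare (-1 : F) := by
    rw [FiniteField.isSquare_neg_one_iff]
    omega
  have h2 : (2 : F) ≠ 0 := by
    apply Ring.two_ne_zero
    intro h
    have := FiniteField.even_card_iff_char_two.mp h
    omega
  set M : Matrix (J d) (J d) F := (x : Matrix (J d) (J d) F) with hMdef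
  have hMMv : ∀ v : J d → F, M *ᵥ (M *ᵥ v) = -v := by
    intro v
    rw [Matrix.mulVec_mulVec, hx2, Matrix.neg_mulVec, Matrix.one_mulVec]
  have hiso : ∀ v : J d → F,
      Cfsg.quadFormPlus d F (M *ᵥ v) = Cfsg.quadFormPlus d F v := fun v => hx v v
  obtain ⟨Y, hWY, hY, hWYbot, hdim, hYst⟩ := hPerp F d W hW
  have hYSt : Stab M Y := hYst x hx hSt
  have hYstab : ∀ y ∈ Y, M *ᵥ y ∈ Y := by
    intro y hy
    have := hYSt (Submodule.mem_map_of_mem hy)
    rwa [Matrix.toLin'_apply] at this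
  have hYpos : 0 < Module.finrank F ↥Y := by omega
  obtain ⟨⟨w0, hw0Y⟩, hw0⟩ := Module.finrank_pos_iff_exists_ne_zero.mp hYpos
  have hw0' : w0 ≠ 0 := fun h => hw0 (Subtype.ext h)
  obtain ⟨v, hvY, hQv⟩ : ∃ v ∈ Y, Cfsg.quadFormPlus d F v ≠ 0 := by
    by_contra hcon
    push_neg at hcon
    obtain ⟨⟨y, hyY, hy⟩, -⟩ := hY w0 hw0Y hw0'
    apply hy
    unfold QuadraticMap.polar
    rw [hcon _ (Y.add_mem hyY hw0Y), hcon _ hyY, hcon _ hw0Y]; ring
  have hQMv : Cfsg.quadFormPlus d F (M *ᵥ v) = Cfsg.quadFormPlus d F v := hiso v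
  have hB0 : QuadraticMap.polar (Cfsg.quadFormPlus d F) v (M *ᵥ v) = 0 := by
    have h1 := polar_iso M hiso v (M *ᵥ v)
    rw [hMMv] at h1
    have h3 : -v = (-1 : F) • v := by rw [neg_one_smul]
    rw [h3, polar_smul_right] at h1
    have h4 : QuadraticMap.polar (Cfsg.quadFormPlus d F) (M *ᵥ v) v =
        QuadraticMap.polar (Cfsg.quadFormPlus d F) v (M *ᵥ v) := by
      unfold QuadraticMap.polar; rw [add_comm]; ring
    rw [h4] at h1
    have h5 : (2 : F) * QuadraticMap.polar (Cfsg.quadFormPlus d F) v (M *ᵥ v) = 0 := by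
      linear_combination -h1
    rcases mul_eq_zero.mp h5 with h | h
    · exact absurd h h2
    · exact h
  have hQab : ∀ a b : F, Cfsg.quadFormPlus d F (a • v + b • (M *ᵥ v)) =
      (a * a + b * b) * Cfsg.quadFormPlus d F v := by
    intro a b
    rw [q_comb, hQMv, hB0]; ring
  have hab0 : ∀ a b : F, a * a + b * b = 0 → a = 0 ∧ b = 0 := by
    intro a b hab
    by_cases hb : b = 0
    · subst hb
      simp at hab
      exact ⟨hab, rfl⟩
    · exfalso
      apply hnsq
      have : (a / b) * (a / b) = -1 := by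
        rw [div_mul_div_comm, div_eq_iff (mul_ne_zero hb hb)]
        linear_combination hab
      exact ⟨a / b, this.symm⟩
  have haniso : ∀ a b : F, Cfsg.quadFormPlus d F (a • v + b • (M *ᵥ v)) = 0 → a = 0 ∧ b = 0 := by
    intro a b h
    rw [hQab] at h
    rcases mul_eq_zero.mp h with h' | h'
    · exact hab0 a b h'
    · exact absurd h' hQv
  have hmem : ∀ w, w ∈ Submodule.span F {v, M *ᵥ v} ↔ ∃ a b : F, a • v + b • (M *ᵥ v) = w :=
    fun w => Submodule.mem_span_pair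
  have hPlY : Submodule.span F {v, M *ᵥ v} ≤ Y := by
    rw [Submodule.span_le]
    intro y hy
    rcases hy with rfl | rfl
    · exact hvY
    · exact hYstab _ hvY
  have hani : ∀ w ∈ Submodule.span F {v, M *ᵥ v}, Cfsg.quadFormPlus d F w = 0 → w = 0 := by
    intro w hw hQ
    obtain ⟨a, b, rfl⟩ := (hmem w).mp hw
    obtain ⟨ha, hb⟩ := haniso a b hQ
    rw [ha, hb, zero_smul, zero_smul, add_zero]
  refine ⟨Submodule.span F {v, M *ᵥ v}, ?_, ?_, ?_, ?_, hani⟩
  · show (Submodule.span F {v, M *ᵥ v}).map (Matrix.toLin' M) ≤ Submodule.span F {v, M *ᵥ v}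
    rw [Submodule.map_span, Submodule.span_le, Set.image_pair]
    intro y hy
    rcases hy with rfl | rfl
    · rw [Matrix.toLin'_apply]; exact Submodule.subset_span (by simp)
    · rw [Matrix.toLin'_apply, hMMv]
      exact Submodule.neg_mem _ (Submodule.subset_span (by simp))
  · intro w hw hw0
    have hQw : Cfsg.quadFormPlus d F w ≠ 0 := fun h => hw0 (hani w hw h)
    have hww : QuadraticMap.polar (Cfsg.quadFormPlus d F) w w ≠ 0 := by
      rw [polar_self]; exact mul_ne_zero h2 hQw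
    exact ⟨⟨w, hw, hww⟩, ⟨w, hw, hww⟩⟩
  · have hli : LinearIndependent F ![v, M *ᵥ v] := by
      rw [LinearIndependent.pair_iff]
      intro s t hst
      apply haniso s t
      rw [hst]
      unfold Cfsg.quadFormPlus; simp
    have hr : Set.range ![v, M *ᵥ v] = {v, M *ᵥ v} := Matrix.range_cons_cons_empty _ _ _
    rw [← hr, finrank_span_eq_card hli]; simp
  · intro u hu y hy
    exact hWY u hu y (hPlY hy)

theorem chain (hPerp : Cfsg.Agent.Lib.Helper44.TPStmt.Perp.{u})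
    (hOrth : Cfsg.Agent.Lib.Helper44.TPStmt.OrthSum.{u}) (F : Type u) [Field F] [Fintype F]
    (hq : Fintype.card F % 4 = 3) (d : ℕ) (x : Matrix.GeneralLinearGroup (J d) F)
    (hx : x ∈ Cfsg.isometryGroup F (Cfsg.quadFormPlus d F))
    (hx2 : (x : Matrix (J d) (J d) F) * (x : Matrix (J d) (J d) F) = -1) :
    ∀ k : ℕ, 2 * k ≤ 2 * d → ∃ W : Submodule F (J d → F),
      Stab (x : Matrix (J d) (J d) F) W ∧ NDeg d F W ∧ Module.finrank F ↥W = 2 * k := by
  intro k
  induction k with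
  | zero =>
    intro _
    refine ⟨⊥, ?_, ?_, by simp⟩
    · show (⊥ : Submodule F (J d → F)).map _ ≤ ⊥
      rw [Submodule.map_bot]
    · intro w hw hw0
      exact absurd ((Submodule.mem_bot F).mp hw) hw0
  | succ k ih =>
    intro hk
    obtain ⟨W, hSt, hW, hfr⟩ := ih (by omega)
    obtain ⟨Pl, hPlSt, hPlN, hPl2, hperp, -⟩ :=
      step hPerp F hq d x hx hx2 W hW hSt (by rw [hfr]; omega)
    obtain ⟨hN, -, hfin⟩ := hOrth F d W Pl hW hPlN hperp
    refine ⟨W ⊔ Pl, ?_, hN, by rw [hfin, hfr, hPl2]; ring⟩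
    show (W ⊔ Pl).map _ ≤ W ⊔ Pl
    rw [Submodule.map_sup]
    exact sup_le_sup hSt hPlSt

theorem main (hPerp : Cfsg.Agent.Lib.Helper44.TPStmt.Perp.{u})
    (hOrth : Cfsg.Agent.Lib.Helper44.TPStmt.OrthSum.{u})
    (hCancel : Cfsg.Agent.Lib.Helper44.TPStmt.Cancel.{u})
    (hB1 : NegSqFixB1.{u}) : NegSqFixB2.{u} := by
  intro F _ _ hq d m hm hmd x hx hx2
  obtain ⟨W, hSt, hW, hfr⟩ := chain hPerp hOrth F hq d x hx hx2 ((m - 2) / 2) (by omega)
  have hfr' : Module.finrank F ↥W = m - 2 := by rw [hfr]; omega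
  obtain ⟨Pl, hPlSt, hPlN, hPl2, hperp, hani⟩ :=
    step hPerp F hq d x hx hx2 W hW hSt (by rw [hfr']; omega)
  obtain ⟨hN, -, hfin⟩ := hOrth F d W Pl hW hPlN hperp
  have hWplus : Plus d F W := hB1 F hq d x hx hx2 W hW hSt (by rw [hfr']; omega)
  have hdimm : Module.finrank F ↥(W ⊔ Pl) = m := by rw [hfin, hfr', hPl2]; omega
  refine ⟨W ⊔ Pl, ⟨hdimm, hN, ?_⟩, ?_⟩
  · intro hplus
    have hPlplus : Plus d F Pl := hCancel F d W Pl hW hPlN hperp hplus hWplus
    obtain ⟨U, hU, hUts, hUd⟩ := hPlplus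
    have hU1 : 0 < Module.finrank F ↥U := by rw [hPl2] at hUd; omega
    obtain ⟨⟨w, hwU⟩, hw⟩ := Module.finrank_pos_iff_exists_ne_zero.mp hU1
    exact hw (Subtype.ext (hani w (hU hwU) (hUts w hwU)))
  · show (W ⊔ Pl).map _ ≤ W ⊔ Pl
    rw [Submodule.map_sup]
    exact sup_le_sup hSt hPlSt

end Cfsg.Agent.Lib.Helper20.EPNEGSQFIXB2
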