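import Mathlib
import Cfsg.Prelude.Def_TwoFusion
import Cfsg.Agent.Lib.Helper20.Isolated
import Cfsg.Agent.Lib.Helper20.Dihedral

set_option autoImplicit false

namespace Cfsg.Agent.Lib.Helper20.IsolatedK

open Cfsg Cfsg.Agent.Lib.Helper20.Isolated

variable {G : Type*} [Group G]

/-- the set `K` of elements of odd order inverted by `z` -/
def InK (z k : G) : Prop := Odd (orderOf k) ∧ z * k * z⁻¹ = k⁻¹

lemma inK_inv {z k : G} (h : InK z k) : InK z k⁻¹ := by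
  refine ⟨by rw [orderOf_inv]; exact h.1, ?_⟩
  calc z * k⁻¹ * z⁻¹ = (z * k * z⁻¹)⁻¹ := by group
    _ = k⁻¹⁻¹ := by rw [h.2]

lemma inK_pow {z k : G} (h : InK z k) (n : ℕ) : InK z (k ^ n) :=
  ⟨odd_orderOf_pow h.1 n, conj_pow_of_conj_inv h.2 n⟩

lemma inK_osqrt {z k : G} (h : InK z k) : InK z (osqrt k) := inK_pow h _

lemma inK_conj {z k c : G} (h : InK z k) (hc : Commute c z) : InK z (c * k * c⁻¹) := by
  refine ⟨?_, ?_⟩
  · have : c * k * c⁻¹ = MulAut.conj c k := by simp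
    rw [this, MulEquiv.orderOf_eq]; exact h.1
  · have h1 : z * c = c * z := hc.eq.symm
    have h2 : z * c⁻¹ = c⁻¹ * z := by
      have := hc.inv_left.eq
      exact this.symm
    calc z * (c * k * c⁻¹) * z⁻¹ = (z * c) * k * c⁻¹ * z⁻¹ := by group
      _ = c * z * k * c⁻¹ * z⁻¹ := by rw [h1]
      _ = c * (z * k * z⁻¹) * (z * c⁻¹) * z⁻¹ := by group
      _ = c * k⁻¹ * (c⁻¹ * z) * z⁻¹ := by rw [h.2, h2]
      _ = (c * k * c⁻¹)⁻¹ := by group

variable [Finite G]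

lemma inK_iff {z : G} (hz : IsIsolatedInvolution z) (k : G) :
    InK z k ↔ ∃ g : G, k * z = g * z * g⁻¹ := by
  have hzz := isolated_mul_self hz
  have hzi := isolated_inv hz
  constructor
  · intro h
    refine ⟨osqrt k, ?_⟩
    have h1 := inK_osqrt h
    rw [conj_eq_sq_mul_of_inverted hzz h1.2, osqrt_sq h.1]
  · rintro ⟨g, hg⟩
    have hk : k = g * z * g⁻¹ * z := by
      calc k = k * z * z := by rw [mul_assoc, hzz, mul_one]
        _ = _ := by rw [hg]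
    refine ⟨by rw [hk]; exact isolated_odd_order' hz g, ?_⟩
    rw [hk]
    have hww := conj_mul_self_of_isolated hz g
    rw [mul_inv_rev, hzi, inv_eq_self_of_mul_self hww]
    calc z * (g * z * g⁻¹ * z) * z = z * (g * z * g⁻¹) * (z * z) := by group
      _ = z * (g * z * g⁻¹) := by rw [hzz, mul_one]

lemma inK_mul_mul {z : G} (hz : IsIsolatedInvolution z) {a b : G} (ha : InK z a) (hb : InK z b) :
    InK z (a * b * a) := by
  rw [inK_iff hz] at hb ⊢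
  obtain ⟨g, hg⟩ := hb
  refine ⟨a * g, ?_⟩
  have hzi := isolated_inv hz
  have h1 : z * a⁻¹ * z⁻¹ = a := by
    calc z * a⁻¹ * z⁻¹ = (z * a * z⁻¹)⁻¹ := by group
      _ = a := by rw [ha.2, inv_inv]
  calc a * b * a * z = a * b * (z * a⁻¹ * z⁻¹) * z := by rw [h1]
    _ = a * (b * z) * a⁻¹ := by group
    _ = a * (g * z * g⁻¹) * a⁻¹ := by rw [hg]
    _ = a * g * z * (a * g)⁻¹ := by group

/-- the product of two conjugates of an isolated involution has odd order -/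
lemma odd_conj_mul_conj {z : G} (hz : IsIsolatedInvolution z) (g₁ g₂ : G) :
    Odd (orderOf (g₁ * z * g₁⁻¹ * (g₂ * z * g₂⁻¹))) := by
  have := isolated_odd_order (isolated_conj hz g₁) (g₂ * g₁⁻¹)
  have e : g₂ * g₁⁻¹ * (g₁ * z * g₁⁻¹) * (g₂ * g₁⁻¹)⁻¹ = g₂ * z * g₂⁻¹ := by group
  rwa [e] at this

/-- for `y ∈ K`, `z y = y⁻¹ z` is a conjugate of `z` -/
lemma z_mul_eq {z : G} (hz : IsIsolatedInvolution z) {y : G} (hy : InK z y) :
    ∃ g : G, z * y = g * z * g⁻¹ := by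
  obtain ⟨g, hg⟩ := (inK_iff hz _).mp (inK_inv hy)
  refine ⟨g, ?_⟩
  rw [← hg]
  have hzi := isolated_inv hz
  have := hy.2
  calc z * y = (z * y * z⁻¹) * z := by group
    _ = y⁻¹ * z := by rw [this]

lemma odd_mul {z : G} (hz : IsIsolatedInvolution z) {k y : G} (hk : InK z k) (hy : InK z y) :
    Odd (orderOf (k * y)) := by
  have hzz := isolated_mul_self hz
  obtain ⟨g₁, h1⟩ := (inK_iff hz _).mp hk
  obtain ⟨g₂, h2⟩ := z_mul_eq hz hy
  have : k * y = g₁ * z * g₁⁻¹ * (g₂ * z * g₂⁻¹) := by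
    rw [← h1, ← h2]
    calc k * y = k * (z * z) * y := by rw [hzz, mul_one]
      _ = _ := by group
  rw [this]
  exact odd_conj_mul_conj hz g₁ g₂

/-- the solution `c` of `c y c = k` in `K` -/
noncomputable def sol (k y : G) : G := osqrt (k * y) * y⁻¹

lemma sol_eq {z : G} (hz : IsIsolatedInvolution z) {k y : G} (hk : InK z k) (hy : InK z y) :
    sol k y * y * sol k y = k := by
  have h := osqrt_sq (odd_mul hz hk hy)
  unfold sol
  calc osqrt (k * y) * y⁻¹ * y * (osqrt (k * y) * y⁻¹) = osqrt (k * y) ^ 2 * y⁻¹ := by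
        rw [pow_two]; group
    _ = k := by rw [h]; group

lemma sol_inK {z : G} (hz : IsIsolatedInvolution z) {k y : G} (hk : InK z k) (hy : InK z y) :
    InK z (sol k y) := by
  have hzz := isolated_mul_self hz
  have hzi := isolated_inv hz
  obtain ⟨g₁, h1⟩ := (inK_iff hz _).mp hk
  obtain ⟨g₂, h2⟩ := z_mul_eq hz hy
  obtain ⟨g₃, h3⟩ := (inK_iff hz _).mp (inK_inv hy)
  rw [inK_iff hz]
  obtain ⟨w₁, hw₁⟩ : ∃ w, w = g₁ * z * g₁⁻¹ := ⟨_, rfl⟩
  obtain ⟨w₂, hw₂⟩ : ∃ w, w = g₂ * z * g₂⁻¹ := ⟨_, rfl⟩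
  rw [← hw₁] at h1
  rw [← hw₂] at h2
  have hw₁₁ : w₁ * w₁ = 1 := by rw [hw₁]; exact conj_mul_self_of_isolated hz g₁
  have hw₂₂ : w₂ * w₂ = 1 := by rw [hw₂]; exact conj_mul_self_of_isolated hz g₂
  have hky : k * y = w₁ * w₂ := by
    rw [← h1, ← h2]
    calc k * y = k * (z * z) * y := by rw [hzz, mul_one]
      _ = _ := by group
  -- y⁻¹ z = z y = w₂
  have hyz : y⁻¹ * z = w₂ := by
    rw [← h2]
    calc y⁻¹ * z = (z * y * z⁻¹) * z := by rw [hy.2]
      _ = z * y := by group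
  unfold sol osqrt
  rw [hky]
  obtain ⟨n, hn⟩ : ∃ n, (orderOf (w₁ * w₂) + 1) / 2 = n + 1 := by
    have := orderOf_pos (w₁ * w₂)
    exact ⟨(orderOf (w₁ * w₂) + 1) / 2 - 1, by omega⟩
  rw [hn]
  have e : (w₁ * w₂) ^ (n + 1) * y⁻¹ * z = (w₁ * w₂) ^ n * w₁ := by
    calc (w₁ * w₂) ^ (n + 1) * y⁻¹ * z = (w₁ * w₂) ^ n * (w₁ * w₂) * (y⁻¹ * z) := by
          rw [pow_succ]; simp only [mul_assoc]
      _ = (w₁ * w₂) ^ n * (w₁ * w₂) * w₂ := by rw [hyz]
      _ = (w₁ * w₂) ^ n * w₁ * (w₂ * w₂) := by simp only [mul_assoc]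
      _ = (w₁ * w₂) ^ n * w₁ := by rw [hw₂₂, mul_one]
  rw [e]
  rcases Dihedral.pow_mul_conj hw₁₁ hw₂₂ n with ⟨h, hh⟩ | ⟨h, hh⟩
  · refine ⟨h * g₁, ?_⟩
    rw [← hh, hw₁]; group
  · refine ⟨h * g₂, ?_⟩
    rw [← hh, hw₂]; group

lemma sol_unique {z : G} (hz : IsIsolatedInvolution z) {k y c : G} (hy : InK z y)
    (hc : InK z c) (h : c * y * c = k) : c = sol k y := by
  have h1 : (c * y) ^ 2 = k * y := by
    rw [pow_two, ← h]; group
  have h2 := eq_osqrt_of_sq_eq (odd_mul hz hc hy) h1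
  unfold sol
  rw [← h2]; group


section count

variable {z s : G}

omit [Finite G] in
lemma tau_tau (hss : s * s = 1) (k : G) : s * (s * k * s⁻¹) * s⁻¹ = k := by
  have hsi : s⁻¹ = s := inv_eq_self_of_mul_self hss
  calc s * (s * k * s⁻¹) * s⁻¹ = (s * s) * k * (s⁻¹ * s⁻¹) := by group
    _ = k := by rw [hsi, hss]; group

omit [Finite G] in
lemma commute_sz_iff (hsz : Commute s z) {k : G} (hk : InK z k) :
    Commute k (s * z) ↔ s * k * s⁻¹ = k⁻¹ := by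
  have e : (s * z) * k * (s * z)⁻¹ = (s * k * s⁻¹)⁻¹ := by
    calc (s * z) * k * (s * z)⁻¹ = s * (z * k * z⁻¹) * s⁻¹ := by group
      _ = s * k⁻¹ * s⁻¹ := by rw [hk.2]
      _ = _ := by group
  constructor
  · intro h
    have h1 : (s * z) * k * (s * z)⁻¹ = k := by
      rw [← h.eq]; group
    rw [e] at h1
    exact inv_eq_iff_eq_inv.mp h1
  · intro h
    have h1 : (s * z) * k * (s * z)⁻¹ = k := by rw [e, h, inv_inv]
    unfold Commute SemiconjBy
    calc k * (s * z) = ((s * z) * k * (s * z)⁻¹) * (s * z) := by rw [h1]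
      _ = s * z * k := by group

omit [Finite G] in
lemma commute_s_iff {k : G} : Commute k s ↔ s * k * s⁻¹ = k := by
  constructor
  · intro h
    rw [← h.eq]; group
  · intro h
    unfold Commute SemiconjBy
    calc k * s = (s * k * s⁻¹) * s := by rw [h]
      _ = s * k := by group

lemma decomp_exists (hz : IsIsolatedInvolution z) (hss : s * s = 1) (hsz : Commute s z)
    {k : G} (hk : InK z k) :
    ∃ a b : G, InK z a ∧ s * a * s⁻¹ = a⁻¹ ∧ InK z b ∧ s * b * s⁻¹ = b ∧ a * b * a = k := by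
  obtain ⟨y, hy⟩ : ∃ y, y = s * k * s⁻¹ := ⟨_, rfl⟩
  have hyK : InK z y := by rw [hy]; exact inK_conj hk hsz
  have hτy : s * y * s⁻¹ = k := by rw [hy]; exact tau_tau hss k
  obtain ⟨c, hc⟩ : ∃ c, c = sol k y := ⟨_, rfl⟩
  have hcK : InK z c := by rw [hc]; exact sol_inK hz hk hyK
  have hcy : c * y * c = k := by rw [hc]; exact sol_eq hz hk hyK
  have hτcK : InK z (s * c * s⁻¹) := inK_conj hcK hsz
  have h1 : (s * c * s⁻¹) * k * (s * c * s⁻¹) = y := by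
    calc (s * c * s⁻¹) * k * (s * c * s⁻¹) = (s * c * s⁻¹) * (s * y * s⁻¹) * (s * c * s⁻¹) := by
          rw [hτy]
      _ = s * (c * y * c) * s⁻¹ := by group
      _ = y := by rw [hcy, hy]
  have h2 : (s * c * s⁻¹)⁻¹ * y * (s * c * s⁻¹)⁻¹ = k := by
    rw [← h1]; group
  have h3 : (s * c * s⁻¹)⁻¹ = sol k y := sol_unique hz hyK (inK_inv hτcK) h2
  rw [← hc] at h3
  have hτc : s * c * s⁻¹ = c⁻¹ := inv_eq_iff_eq_inv.mp h3
  obtain ⟨a, ha⟩ : ∃ a, a = osqrt c := ⟨_, rfl⟩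
  have haK : InK z a := by rw [ha]; exact inK_osqrt hcK
  have ha2 : a ^ 2 = c := by rw [ha]; exact osqrt_sq hcK.1
  have hτa : s * a * s⁻¹ = a⁻¹ := by
    rw [ha]; unfold osqrt
    rw [← conj_pow, hτc, inv_pow]
  have haiK := inK_inv haK
  refine ⟨a, a⁻¹ * k * a⁻¹, haK, hτa, inK_mul_mul hz haiK hk, ?_, by group⟩
  calc s * (a⁻¹ * k * a⁻¹) * s⁻¹ = (s * a * s⁻¹)⁻¹ * (s * k * s⁻¹) * (s * a * s⁻¹)⁻¹ := by group
    _ = a * y * a := by rw [hτa, inv_inv, hy]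
    _ = a⁻¹ * (a ^ 2 * y * a ^ 2) * a⁻¹ := by rw [pow_two]; group
    _ = a⁻¹ * k * a⁻¹ := by rw [ha2, hcy]

lemma decomp_unique (hz : IsIsolatedInvolution z) (hsz : Commute s z)
    {a b a' b' : G} (ha : InK z a) (hτa : s * a * s⁻¹ = a⁻¹) (hb : InK z b) (hτb : s * b * s⁻¹ = b)
    (ha' : InK z a') (hτa' : s * a' * s⁻¹ = a'⁻¹) (hτb' : s * b' * s⁻¹ = b')
    (h : a * b * a = a' * b' * a') : a = a' ∧ b = b' := by
  obtain ⟨k, hk⟩ : ∃ k, k = a * b * a := ⟨_, rfl⟩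
  have hkK : InK z k := by rw [hk]; exact inK_mul_mul hz ha hb
  obtain ⟨y, hy⟩ : ∃ y, y = s * k * s⁻¹ := ⟨_, rfl⟩
  have hyK : InK z y := by rw [hy]; exact inK_conj hkK hsz
  have hy1 : y = a⁻¹ * b * a⁻¹ := by
    rw [hy, hk]
    calc s * (a * b * a) * s⁻¹ = (s * a * s⁻¹) * (s * b * s⁻¹) * (s * a * s⁻¹) := by group
      _ = _ := by rw [hτa, hτb]
  have hy2 : y = a'⁻¹ * b' * a'⁻¹ := by
    rw [hy, hk, h]
    calc s * (a' * b' * a') * s⁻¹ = (s * a' * s⁻¹) * (s * b' * s⁻¹) * (s * a' * s⁻¹) := by group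
      _ = _ := by rw [hτa', hτb']
  have e1 : a ^ 2 * y * a ^ 2 = k := by rw [hy1, hk, pow_two]; group
  have e2 : a' ^ 2 * y * a' ^ 2 = k := by rw [hy2, hk, h, pow_two]; group
  have s1 := sol_unique hz hyK (inK_pow ha 2) e1
  have s2 := sol_unique hz hyK (inK_pow ha' 2) e2
  have haa : a = a' := eq_of_sq_eq_sq_of_odd ha.1 ha'.1 (s1.trans s2.symm)
  subst haa
  refine ⟨rfl, ?_⟩
  exact mul_left_cancel (mul_right_cancel h)

theorem card_formula (hz : IsIsolatedInvolution z) (hs : orderOf s = 2) (hsz : Commute s z) :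
    Nat.card G = Nat.card (Subgroup.centralizer ({z} : Set G)) *
      Nat.card {k : G // Odd (orderOf k) ∧ z * k * z⁻¹ = k⁻¹ ∧ Commute k (s * z)} *
      Nat.card {k : G // Odd (orderOf k) ∧ z * k * z⁻¹ = k⁻¹ ∧ Commute k s} := by
  have hss : s * s = 1 := mul_self_of_orderOf_two hs
  let f : (Subgroup.centralizer ({z} : Set G) ×
      {k : G // Odd (orderOf k) ∧ z * k * z⁻¹ = k⁻¹ ∧ Commute k (s * z)}) ×
      {k : G // Odd (orderOf k) ∧ z * k * z⁻¹ = k⁻¹ ∧ Commute k s} → G :=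
    fun p => p.1.2.1 * p.2.1 * p.1.2.1 * p.1.1.1
  have hf : Function.Bijective f := by
    constructor
    · rintro ⟨⟨⟨c, hc⟩, ⟨a, ha1, ha2, ha3⟩⟩, ⟨b, hb1, hb2, hb3⟩⟩
        ⟨⟨⟨c', hc'⟩, ⟨a', ha1', ha2', ha3'⟩⟩, ⟨b', hb1', hb2', hb3'⟩⟩ h
      simp only [f] at h
      have haK : InK z a := ⟨ha1, ha2⟩
      have hbK : InK z b := ⟨hb1, hb2⟩
      have haK' : InK z a' := ⟨ha1', ha2'⟩
      have hbK' : InK z b' := ⟨hb1', hb2'⟩
      have hkK := inK_mul_mul hz haK hbK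
      have hkK' := inK_mul_mul hz haK' hbK'
      have m1 : (a * b * a * c)⁻¹ * (a * b * a) ∈ Subgroup.centralizer ({z} : Set G) := by
        have e : (a * b * a * c)⁻¹ * (a * b * a) = c⁻¹ := by group
        rw [e]; exact Subgroup.inv_mem _ hc
      have m2 : (a * b * a * c)⁻¹ * (a' * b' * a') ∈ Subgroup.centralizer ({z} : Set G) := by
        rw [h]
        have e : (a' * b' * a' * c')⁻¹ * (a' * b' * a') = c'⁻¹ := by group
        rw [e]; exact Subgroup.inv_mem _ hc'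
      have u1 := isoK_unique hz _ _ hkK.1 hkK.2 m1
      have u2 := isoK_unique hz _ _ hkK'.1 hkK'.2 m2
      have hkk : a * b * a = a' * b' * a' := u1.trans u2.symm
      have hcc : c = c' := by
        rw [hkk] at h
        exact mul_left_cancel h
      obtain ⟨haa, hbb⟩ := decomp_unique hz hsz haK ((commute_sz_iff hsz haK).mp ha3) hbK
        (commute_s_iff.mp hb3) haK' ((commute_sz_iff hsz haK').mp ha3')
        (commute_s_iff.mp hb3') hkk
      subst hcc haa hbb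
      rfl
    · intro g
      have hkK : InK z (isoK z g) := ⟨isoK_odd hz g, isoK_inv hz g⟩
      obtain ⟨a, b, haK, hτa, hbK, hτb, hab⟩ := decomp_exists hz hss hsz hkK
      have hc : (isoK z g)⁻¹ * g ∈ Subgroup.centralizer ({z} : Set G) := by
        have h1 := Subgroup.inv_mem _ (isoK_coset hz g)
        rw [mul_inv_rev, inv_inv] at h1
        exact h1
      refine ⟨⟨⟨⟨(isoK z g)⁻¹ * g, hc⟩, ⟨a, haK.1, haK.2, (commute_sz_iff hsz haK).mpr hτa⟩⟩,
        ⟨b, hbK.1, hbK.2, commute_s_iff.mpr hτb⟩⟩, ?_⟩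
      simp only [f]
      rw [hab]; group
  rw [← Nat.card_eq_of_bijective f hf, Nat.card_prod, Nat.card_prod]

end count

end Cfsg.Agent.Lib.Helper20.IsolatedK
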