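import Mathlib
import Cfsg.Agent.Lib.Helper27.JzStmt

/-!
# S5403, piece SB: a normal subgroup meeting the centraliser of `z` non-trivially contains `z`.
-/

set_option autoImplicit false

namespace Cfsg.Agent.Lib.Helper20.JzSB

open Cfsg Cfsg.Agent.Lib.Helper27

theorem main : JzStmt.SB := by
  intro S _ _ z Q h N hN hx
  obtain ⟨x, hxN, hx1, hxz⟩ := hx
  haveI := hN
  haveI : Fact (Nat.Prime 2) := ⟨Nat.prime_two⟩
  have hQp : IsPGroup 2 ↥Q := IsPGroup.of_card h.card_Q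
  by_cases hD : N.subgroupOf Q = ⊥
  · exfalso
    have hcomm : ∀ q ∈ Q, x * q = q * x := by
      intro q hq
      have hc1 : x * q * x⁻¹ * q⁻¹ ∈ N := by
        have h1 : q * x⁻¹ * q⁻¹ ∈ N := hN.conj_mem _ (N.inv_mem hxN) q
        have h2 := N.mul_mem hxN h1
        have e : x * q * x⁻¹ * q⁻¹ = x * (q * x⁻¹ * q⁻¹) := by group
        rw [e]; exact h2
      have hc2 : x * q * x⁻¹ * q⁻¹ ∈ Q := Q.mul_mem (h.Q_norm x hxz q hq) (Q.inv_mem hq)
      have hmem : (⟨x * q * x⁻¹ * q⁻¹, hc2⟩ : ↥Q) ∈ N.subgroupOf Q := by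
        rw [Subgroup.mem_subgroupOf]; exact hc1
      rw [hD, Subgroup.mem_bot] at hmem
      have h3 : x * q * x⁻¹ * q⁻¹ = 1 := congrArg Subtype.val hmem
      calc x * q = (x * q * x⁻¹ * q⁻¹) * (q * x) := by group
        _ = q * x := by rw [h3, one_mul]
    have hxQ : x ∈ Q := h.self_c x hxz hcomm
    have hmem : (⟨x, hxQ⟩ : ↥Q) ∈ N.subgroupOf Q := by
      rw [Subgroup.mem_subgroupOf]; exact hxN
    rw [hD, Subgroup.mem_bot] at hmem
    exact hx1 (congrArg Subtype.val hmem)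
  · have hnt : Nontrivial ↥(N.subgroupOf Q) := (Subgroup.nontrivial_iff_ne_bot _).mpr hD
    obtain ⟨n, hn0, hn⟩ := (hQp.to_subgroup (N.subgroupOf Q)).nontrivial_iff_card.mp hnt
    have hdvd : 2 ∣ Nat.card ↥(N.subgroupOf Q) := by rw [hn]; exact dvd_pow_self 2 (by omega)
    have h1 : (1 : ↥(N.subgroupOf Q)) ∈ MulAction.fixedPoints (ConjAct ↥Q) ↥(N.subgroupOf Q) := by
      intro g; exact smul_one g
    obtain ⟨b, hb, hb1⟩ :=
      (hQp.of_equiv ConjAct.toConjAct).exists_fixed_point_of_prime_dvd_card_of_fixed_point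
        ↥(N.subgroupOf Q) hdvd h1
    have hbc : ∀ q : ↥Q, q * (b : ↥Q) * q⁻¹ = (b : ↥Q) := by
      intro q
      have := congrArg Subtype.val (hb (ConjAct.toConjAct q))
      rwa [ConjAct.Subgroup.val_conj_smul, ConjAct.toConjAct_smul] at this
    have hbQ : ((b : ↥Q) : S) ∈ Q := (b : ↥Q).2
    have hbN : ((b : ↥Q) : S) ∈ N := Subgroup.mem_subgroupOf.mp b.2
    have hbcen : ∀ q' ∈ Q, ((b : ↥Q) : S) * q' = q' * ((b : ↥Q) : S) := by
      intro q' hq'
      have h2 : q' * ((b : ↥Q) : S) * q'⁻¹ = ((b : ↥Q) : S) :=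
        congrArg Subtype.val (hbc ⟨q', hq'⟩)
      calc ((b : ↥Q) : S) * q' = (q' * ((b : ↥Q) : S) * q'⁻¹) * q' := by rw [h2]
        _ = q' * ((b : ↥Q) : S) := by group
    rcases h.cen_Q _ hbQ hbcen with h1' | hz
    · exfalso
      apply hb1
      apply Subtype.ext
      apply Subtype.ext
      simp only [Subgroup.coe_one]
      exact h1'.symm
    · rw [← hz]; exact hbN

end Cfsg.Agent.Lib.Helper20.JzSB
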