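import Mathlib
import Cfsg.Agent.Lib.Helper42.LieOrdStmt

/-!
# S2363: small arithmetic toolkit on top of `Helper42.LieOrdStmt` (factors prime to `p`
and bounded by a power of `q = p ^ f`)
-/

set_option autoImplicit false

namespace Cfsg.Agent.Lib.Helper20.LieOrdBase

open Cfsg.Agent.Lib.Helper42.LieOrdStmt

/-- `P` is prime to `p` and less than `q ^ D`, `q = p ^ f` -/
def Good (p f P D : ℕ) : Prop := ¬ p ∣ P ∧ P < (p ^ f) ^ D

theorem two_le_q {p : ℕ} (hp : p.Prime) (f : ℕ) (hf : 1 ≤ f) : 2 ≤ p ^ f :=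
  hp.two_le.trans (Nat.le_self_pow (by omega) p)

theorem good_sub {p : ℕ} (hp : p.Prime) (f i : ℕ) (hf : 1 ≤ f) (hi : 1 ≤ i) :
    Good p f ((p ^ f) ^ i - 1) i :=
  ⟨not_dvd_pow_sub_one hp f i hf hi, Nat.sub_lt (pow_pos (pow_pos hp.pos f) i) one_pos⟩

theorem good_mul {p : ℕ} (hp : p.Prime) {f P D P' D' : ℕ} (h : Good p f P D)
    (h' : Good p f P' D') : Good p f (P * P') (D + D') := by
  refine ⟨fun hd => ?_, ?_⟩
  · rcases (Nat.Prime.dvd_mul hp).mp hd with h1 | h1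
    · exact h.1 h1
    · exact h'.1 h1
  · rw [pow_add]
    exact Nat.mul_lt_mul'' h.2 h'.2

theorem good_pair {p : ℕ} (hp : p.Prime) (f a b : ℕ) (hf : 1 ≤ f) (ha : 1 ≤ a) (hab : a ≤ b) :
    Good p f (((p ^ f) ^ a - 1) * ((p ^ f) ^ b + 1)) (a + b) := by
  refine ⟨fun hd => ?_, ?_⟩
  · rcases (Nat.Prime.dvd_mul hp).mp hd with h1 | h1
    · exact not_dvd_pow_sub_one hp f a hf ha h1
    · exact not_dvd_pow_add_one hp f b hf (by omega) h1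
  · exact sub_one_mul_add_one_lt (p ^ f) a b (two_le_q hp f hf) hab

theorem good_d4 {p : ℕ} (hp : p.Prime) (f : ℕ) (hf : 1 ≤ f) :
    Good p f ((p ^ f) ^ 8 + (p ^ f) ^ 4 + 1) 9 := by
  have hx : 2 ≤ p ^ f := two_le_q hp f hf
  refine ⟨fun hd => ?_, ?_⟩
  · have h0 : p ∣ p ^ f := dvd_pow_self p (by omega)
    have h1 : p ∣ (p ^ f) ^ 8 + (p ^ f) ^ 4 :=
      Dvd.dvd.add (dvd_pow h0 (by norm_num)) (dvd_pow h0 (by norm_num))
    exact hp.one_lt.ne' (Nat.dvd_one.mp ((Nat.dvd_add_right h1).mp hd))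
  · obtain ⟨x, hxdef⟩ : ∃ x, x = p ^ f := ⟨_, rfl⟩
    rw [← hxdef] at hx ⊢
    have hy : 16 ≤ x ^ 4 := by
      calc 16 = 2 ^ 4 := by norm_num
        _ ≤ x ^ 4 := Nat.pow_le_pow_left hx 4
    have e8 : x ^ 8 = x ^ 4 * x ^ 4 := by ring
    have e9 : x ^ 9 = x * (x ^ 4 * x ^ 4) := by ring
    rw [e8, e9]
    generalize x ^ 4 = y at hy ⊢
    nlinarith [Nat.mul_le_mul_right (y * y) hx, Nat.mul_le_mul_right y hy]

theorem card_field (F : Type) [Field F] [Fintype F] (p : ℕ) [CharP F p] :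
    ∃ f : ℕ, 1 ≤ f ∧ Fintype.card F = p ^ f := by
  obtain ⟨n, -, hn⟩ := FiniteField.card F p
  exact ⟨n, n.pos, hn⟩

theorem ndvd_gcd_sub {p : ℕ} (hp : p.Prime) (f : ℕ) (hf : 1 ≤ f) (k : ℕ) :
    ¬ p ∣ Nat.gcd k (p ^ f - 1) := by
  intro h
  have h1 : p ∣ p ^ f - 1 := h.trans (Nat.gcd_dvd_right _ _)
  have h2 := not_dvd_pow_sub_one hp f 1 hf le_rfl
  rw [pow_one] at h2
  exact h2 h1

theorem ndvd_gcd_add {p : ℕ} (hp : p.Prime) (f : ℕ) (hf : 1 ≤ f) (k : ℕ) :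
    ¬ p ∣ Nat.gcd k (p ^ f + 1) := by
  intro h
  have h1 : p ∣ p ^ f + 1 := h.trans (Nat.gcd_dvd_right _ _)
  have h2 := not_dvd_pow_add_one hp f 1 hf le_rfl
  rw [pow_one] at h2
  exact h2 h1

theorem strong_of_good {G : Type*} [Group G] {p f : ℕ} (hp : p.Prime) (d N D P : ℕ)
    (hd : d * Nat.card G = (p ^ f) ^ N * P) (hpd : ¬ p ∣ d) (hP : Good p f P D)
    (hD1 : D ≤ 2 * N) (hD2 : 3 * D ≤ 5 * N) : Strong p G :=
  (strong_of_formula p f hp d N D P hd hpd hP.1 hP.2 hD1 hD2).2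

end Cfsg.Agent.Lib.Helper20.LieOrdBase
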