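import Mathlib
import Cfsg.Agent.Lib.Helper42.LieOrdStmt
import Cfsg.Agent.Lib.Helper20.LieOrdBase
import Cfsg.Agent.S1059
import Cfsg.Agent.S1062
import Cfsg.Agent.S1063
import Cfsg.Agent.S1064
import Cfsg.Agent.S1065

/-!
# S2363 piece EX: the Chevalley groups of types G₂, F₄, E₆, E₇, E₈
-/

set_option autoImplicit false

namespace Cfsg.Agent.Lib.Helper20.LieOrdEX

open Cfsg.Agent.Lib.Helper42.LieOrdStmt Cfsg.Agent.Lib.Helper20.LieOrdBase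

universe u

theorem main : ExcStmt.{u} := by
  intro G _ _ p hp h
  obtain ⟨F, _, _, _, h⟩ := h
  obtain ⟨f, hf, hq⟩ := card_field F p
  have g : ∀ i : ℕ, 1 ≤ i → Good p f ((p ^ f) ^ i - 1) i := fun i hi => good_sub hp f i hf hi
  rcases h with ⟨-, ⟨e⟩⟩ | ⟨⟨e⟩⟩ | ⟨⟨e⟩⟩ | ⟨⟨e⟩⟩ | ⟨⟨e⟩⟩
  · have hc : Nat.card G = (p ^ f) ^ 6 * ((p ^ f) ^ 2 - 1) * ((p ^ f) ^ 6 - 1) := by
      rw [Nat.card_congr e.toEquiv]
      exact Cfsg.Agent.S1059.result hq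
    refine strong_of_good hp 1 6 (2 + 6) (((p ^ f) ^ 2 - 1) * ((p ^ f) ^ 6 - 1)) ?_
      hp.not_dvd_one
      (good_mul hp (g 2 (by norm_num)) (g 6 (by norm_num))) (by norm_num) (by norm_num)
    rw [hc]
    ring
  · have hc : Nat.card G = (p ^ f) ^ 24 * ((p ^ f) ^ 2 - 1) * ((p ^ f) ^ 6 - 1) *
        ((p ^ f) ^ 8 - 1) * ((p ^ f) ^ 12 - 1) := by
      rw [Nat.card_congr e.toEquiv]
      exact Cfsg.Agent.S1062.result hq
    refine strong_of_good hp 1 24 (2 + 6 + 8 + 12)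
      (((p ^ f) ^ 2 - 1) * ((p ^ f) ^ 6 - 1) * ((p ^ f) ^ 8 - 1) * ((p ^ f) ^ 12 - 1)) ?_
      hp.not_dvd_one
      (good_mul hp (good_mul hp (good_mul hp (g 2 (by norm_num)) (g 6 (by norm_num)))
        (g 8 (by norm_num))) (g 12 (by norm_num))) (by norm_num) (by norm_num)
    rw [hc]
    ring
  · have hc : Nat.gcd 3 (p ^ f - 1) * Nat.card G = (p ^ f) ^ 36 * ((p ^ f) ^ 2 - 1) *
        ((p ^ f) ^ 5 - 1) * ((p ^ f) ^ 6 - 1) * ((p ^ f) ^ 8 - 1) * ((p ^ f) ^ 9 - 1) *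
        ((p ^ f) ^ 12 - 1) := by
      rw [Nat.card_congr e.toEquiv]
      exact Cfsg.Agent.S1063.result hq
    refine strong_of_good hp (Nat.gcd 3 (p ^ f - 1)) 36 (2 + 5 + 6 + 8 + 9 + 12)
      (((p ^ f) ^ 2 - 1) * ((p ^ f) ^ 5 - 1) * ((p ^ f) ^ 6 - 1) * ((p ^ f) ^ 8 - 1) *
        ((p ^ f) ^ 9 - 1) * ((p ^ f) ^ 12 - 1)) ?_
      (ndvd_gcd_sub hp f hf 3)
      (good_mul hp (good_mul hp (good_mul hp (good_mul hp (good_mul hp (g 2 (by norm_num))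
        (g 5 (by norm_num))) (g 6 (by norm_num))) (g 8 (by norm_num))) (g 9 (by norm_num)))
        (g 12 (by norm_num))) (by norm_num) (by norm_num)
    rw [hc]
    ring
  · have hc : Nat.gcd 2 (p ^ f - 1) * Nat.card G = (p ^ f) ^ 63 * ((p ^ f) ^ 2 - 1) *
        ((p ^ f) ^ 6 - 1) * ((p ^ f) ^ 8 - 1) * ((p ^ f) ^ 10 - 1) * ((p ^ f) ^ 12 - 1) *
        ((p ^ f) ^ 14 - 1) * ((p ^ f) ^ 18 - 1) := by
      rw [Nat.card_congr e.toEquiv]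
      exact Cfsg.Agent.S1064.result hq
    refine strong_of_good hp (Nat.gcd 2 (p ^ f - 1)) 63 (2 + 6 + 8 + 10 + 12 + 14 + 18)
      (((p ^ f) ^ 2 - 1) * ((p ^ f) ^ 6 - 1) * ((p ^ f) ^ 8 - 1) * ((p ^ f) ^ 10 - 1) *
        ((p ^ f) ^ 12 - 1) * ((p ^ f) ^ 14 - 1) * ((p ^ f) ^ 18 - 1)) ?_
      (ndvd_gcd_sub hp f hf 2)
      (good_mul hp (good_mul hp (good_mul hp (good_mul hp (good_mul hp (good_mul hp
        (g 2 (by norm_num)) (g 6 (by norm_num))) (g 8 (by norm_num))) (g 10 (by norm_num)))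
        (g 12 (by norm_num))) (g 14 (by norm_num))) (g 18 (by norm_num)))
      (by norm_num) (by norm_num)
    rw [hc]
    ring
  · have hc : Nat.card G = (p ^ f) ^ 120 * ((p ^ f) ^ 2 - 1) * ((p ^ f) ^ 8 - 1) *
        ((p ^ f) ^ 12 - 1) * ((p ^ f) ^ 14 - 1) * ((p ^ f) ^ 18 - 1) * ((p ^ f) ^ 20 - 1) *
        ((p ^ f) ^ 24 - 1) * ((p ^ f) ^ 30 - 1) := by
      rw [Nat.card_congr e.toEquiv]
      exact Cfsg.Agent.S1065.result hq
    refine strong_of_good hp 1 120 (2 + 8 + 12 + 14 + 18 + 20 + 24 + 30)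
      (((p ^ f) ^ 2 - 1) * ((p ^ f) ^ 8 - 1) * ((p ^ f) ^ 12 - 1) * ((p ^ f) ^ 14 - 1) *
        ((p ^ f) ^ 18 - 1) * ((p ^ f) ^ 20 - 1) * ((p ^ f) ^ 24 - 1) * ((p ^ f) ^ 30 - 1)) ?_
      hp.not_dvd_one
      (good_mul hp (good_mul hp (good_mul hp (good_mul hp (good_mul hp (good_mul hp (good_mul hp
        (g 2 (by norm_num)) (g 8 (by norm_num))) (g 12 (by norm_num))) (g 14 (by norm_num)))
        (g 18 (by norm_num))) (g 20 (by norm_num))) (g 24 (by norm_num))) (g 30 (by norm_num)))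
      (by norm_num) (by norm_num)
    rw [hc]
    ring

end Cfsg.Agent.Lib.Helper20.LieOrdEX
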