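import Mathlib
import Cfsg.Agent.Lib.Helper42.LieOrdStmt
import Cfsg.Agent.Lib.Helper20.LieOrdBase
import Cfsg.Agent.S1066
import Cfsg.Agent.S1067

/-!
# S2363 piece TW: the twisted groups `²E₆(q)` and `³D₄(q)`
-/

set_option autoImplicit false

namespace Cfsg.Agent.Lib.Helper20.LieOrdTW

open Cfsg.Agent.Lib.Helper42.LieOrdStmt Cfsg.Agent.Lib.Helper20.LieOrdBase

universe u

theorem main : TwStmt.{u} := by
  intro G _ _ p hp h
  obtain ⟨K, _, _, _, q, hq, h⟩ := h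
  obtain ⟨e0, -, hK0⟩ := card_field K p
  have key : ∀ k : ℕ, 1 ≤ k → Fintype.card K = q ^ k → ∃ f : ℕ, 1 ≤ f ∧ q = p ^ f := by
    intro k hk hK
    obtain ⟨f, hfq⟩ := exists_pow_of_pow_eq hp k e0 q hk (hK.symm.trans hK0)
    refine ⟨f, ?_, hfq⟩
    rcases Nat.eq_zero_or_pos f with h0 | h0
    · have h1 := hq.one_lt
      rw [hfq, h0, pow_zero] at h1
      exact absurd h1 (lt_irrefl 1)
    · exact h0
  rcases h with ⟨hK, ⟨e⟩⟩ | ⟨hK, ⟨e⟩⟩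
  · obtain ⟨f, hf, rfl⟩ := key 2 (by norm_num) hK
    have g : ∀ i : ℕ, 1 ≤ i → Good p f ((p ^ f) ^ i - 1) i := fun i hi => good_sub hp f i hf hi
    have hc : Nat.gcd 3 (p ^ f + 1) * Nat.card G = (p ^ f) ^ 36 * ((p ^ f) ^ 2 - 1) *
        ((p ^ f) ^ 5 + 1) * ((p ^ f) ^ 6 - 1) * ((p ^ f) ^ 8 - 1) * ((p ^ f) ^ 9 + 1) *
        ((p ^ f) ^ 12 - 1) := by
      rw [Nat.card_congr e.toEquiv]
      exact Cfsg.Agent.S1066.result hq hK
    refine strong_of_good hp (Nat.gcd 3 (p ^ f + 1)) 36 ((2 + 5) + 6 + (8 + 9) + 12)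
      ((((p ^ f) ^ 2 - 1) * ((p ^ f) ^ 5 + 1)) * ((p ^ f) ^ 6 - 1) *
        (((p ^ f) ^ 8 - 1) * ((p ^ f) ^ 9 + 1)) * ((p ^ f) ^ 12 - 1)) ?_
      (ndvd_gcd_add hp f hf 3)
      (good_mul hp (good_mul hp (good_mul hp (good_pair hp f 2 5 hf (by norm_num) (by norm_num))
        (g 6 (by norm_num))) (good_pair hp f 8 9 hf (by norm_num) (by norm_num)))
        (g 12 (by norm_num))) (by norm_num) (by norm_num)
    rw [hc]
    ring
  · obtain ⟨f, hf, rfl⟩ := key 3 (by norm_num) hK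
    have g : ∀ i : ℕ, 1 ≤ i → Good p f ((p ^ f) ^ i - 1) i := fun i hi => good_sub hp f i hf hi
    have hc : Nat.card G = (p ^ f) ^ 12 * ((p ^ f) ^ 2 - 1) * ((p ^ f) ^ 6 - 1) *
        ((p ^ f) ^ 8 + (p ^ f) ^ 4 + 1) := by
      rw [Nat.card_congr e.toEquiv]
      exact Cfsg.Agent.S1067.result hq hK
    refine strong_of_good hp 1 12 (2 + 6 + 9)
      (((p ^ f) ^ 2 - 1) * ((p ^ f) ^ 6 - 1) * ((p ^ f) ^ 8 + (p ^ f) ^ 4 + 1)) ?_
      hp.not_dvd_one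
      (good_mul hp (good_mul hp (g 2 (by norm_num)) (g 6 (by norm_num))) (good_d4 hp f hf))
      (by norm_num) (by norm_num)
    rw [hc]
    ring

end Cfsg.Agent.Lib.Helper20.LieOrdTW
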