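import Mathlib
import Cfsg.Agent.Lib.Helper45.OMiStmt
import Cfsg.Agent.Lib.Helper56.OPPFIXB
import Cfsg.Agent.Lib.Helper44.NegPairs
import Cfsg.Agent.Lib.Helper44.WittND2

/-!
# S5991 piece PFIXCM

An isometry `x` with a fixed vector `u₁`, `Q u₁ ≠ 0`, `Fix x ≤ ⟨u₁⟩ + (x - 1) V` and
`dim (x - 1)² V ≤ 1`, stabilising a nondegenerate `W` of odd dimension `m`: either `m ≡ 1 (4)`
and `W` carries a `Q u₁`-structure, or `2 d - m ≡ 1 (4)` and the orthogonal complement does.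

Abstract core (`core`, `core1`, `core2`) for a quadratic form on a finite-dimensional space with
`2 ≠ 0` and an orthogonal decomposition `V = Y₁ ⊕ Y₂` into invariant subspaces.
-/

set_option autoImplicit false

universe u

open scoped Matrix

namespace Cfsg.Agent.Lib.Helper20.OMiPFIXCM

open Module QuadraticMap
open Cfsg.Agent.Lib.Helper44.QSpace Cfsg.Agent.Lib.Helper44.NegPairs
open Cfsg.Agent.Lib.Helper44.WittND Cfsg.Agent.Lib.Helper44.WittND2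

section gen

variable {F : Type*} [Field F] {V : Type u} [AddCommGroup V] [Module F V] [FiniteDimensional F V]

theorem polar_iso (Q : QuadraticForm F V) (A : V →ₗ[F] V) (hA : ∀ v, Q (A v) = Q v) (u v : V) :
    polar Q (A u) (A v) = polar Q u v := by
  unfold polar
  rw [← map_add, hA, hA, hA]

/-- a fixed vector is orthogonal to `(A - 1) V` -/
theorem fix_perp (Q : QuadraticForm F V) (A : V →ₗ[F] V) (hA : ∀ v, Q (A v) = Q v) (u v : V)
    (hu : A u = u) : polar Q u (A v - v) = 0 := by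
  have h1 := polar_iso Q A hA u v
  rw [hu] at h1
  rw [polar_sub_right, h1, sub_self]

theorem polar_self' (Q : QuadraticForm F V) (v : V) : polar Q v v = 2 * Q v := by
  rw [polar_self, two_nsmul, two_mul]

/-- a fixed vector in `(A - 1) V` is singular -/
theorem fix_sing (h2 : (2 : F) ≠ 0) (Q : QuadraticForm F V) (A : V →ₗ[F] V)
    (hA : ∀ v, Q (A v) = Q v) (v : V) (hn : A (A v - v) = A v - v) : Q (A v - v) = 0 := by
  have h1 := fix_perp Q A hA (A v - v) v hn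
  rw [polar_self'] at h1
  exact (mul_eq_zero.mp h1).resolve_left h2

theorem core (h2 : (2 : F) ≠ 0) (Q : QuadraticForm F V) (A : V →ₗ[F] V)
    (hA : ∀ v, Q (A v) = Q v) (Y₁ Y₂ : Submodule F V)
    (hsum : ∀ v : V, ∃ y₁ ∈ Y₁, ∃ y₂ ∈ Y₂, v = y₁ + y₂)
    (horth : ∀ y₁ ∈ Y₁, ∀ y₂ ∈ Y₂, polar Q y₁ y₂ = 0)
    (hA1 : ∀ y ∈ Y₁, A y ∈ Y₁) (hA2 : ∀ y ∈ Y₂, A y ∈ Y₂)
    (hnd : NDsub Q Y₁)
    (ut : V) (hut : ut ∈ Y₁) (hfixu : A ut = ut) (hQu : Q ut ≠ 0)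
    (hfix : ∀ y, A y = y → ∃ α : F, ∃ v : V, y = α • ut + (A v - v))
    (hr : finrank F ↥(LinearMap.range ((A - LinearMap.id) ∘ₗ (A - LinearMap.id))) ≤ 1)
    (hodd : Odd (finrank F ↥Y₂)) :
    ∃ L : Submodule F V, L ≤ Y₁ ∧ (∀ v ∈ L, Q v = 0) ∧ (∀ v ∈ L, polar Q v ut = 0) ∧
      2 * finrank F ↥L + 1 = finrank F ↥Y₁ ∧ finrank F ↥Y₁ % 4 = 1 := by
  classical
  obtain ⟨N, hNdef⟩ : ∃ N : V →ₗ[F] V, N = A - LinearMap.id := ⟨_, rfl⟩
  rw [← hNdef] at hr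
  have hN : ∀ v, N v = A v - v := by
    intro v
    rw [hNdef, LinearMap.sub_apply, LinearMap.id_apply]
  have F1 : ∀ u v, A u = u → polar Q u (N v) = 0 := by
    intro u v hu
    rw [hN]
    exact fix_perp Q A hA u v hu
  have hutut : polar Q ut ut ≠ 0 := by
    rw [polar_self']
    exact mul_ne_zero h2 hQu
  have hut0 : ut ≠ 0 := by
    rintro rfl
    exact hQu (map_zero Q)
  have hNut : N ut = 0 := by rw [hN, hfixu, sub_self]
  have hint : ∀ z, z ∈ Y₁ → z ∈ Y₂ → z = 0 := by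
    intro z hz1 hz2
    apply hnd z hz1
    intro y hy
    rw [polar_comm]
    exact horth y hy z hz2
  have hN1 : ∀ y ∈ Y₁, N y ∈ Y₁ := fun y hy => by
    rw [hN]
    exact Y₁.sub_mem (hA1 y hy) hy
  have hN2 : ∀ y ∈ Y₂, N y ∈ Y₂ := fun y hy => by
    rw [hN]
    exact Y₂.sub_mem (hA2 y hy) hy
  obtain ⟨W₂, hW₂def⟩ : ∃ W₂ : Submodule F V, W₂ = Y₁ ⊓ LinearMap.ker (polarBilin Q ut) :=
    ⟨_, rfl⟩
  have hW₂ : ∀ y, y ∈ W₂ ↔ y ∈ Y₁ ∧ polar Q ut y = 0 := by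
    intro y
    rw [hW₂def, Submodule.mem_inf, LinearMap.mem_ker]
    rfl
  have hW₂Y : W₂ ≤ Y₁ := fun y hy => ((hW₂ y).mp hy).1
  have hAW₂ : ∀ y ∈ W₂, A y ∈ W₂ := by
    intro y hy
    obtain ⟨h1, h3⟩ := (hW₂ y).mp hy
    refine (hW₂ _).mpr ⟨hA1 y h1, ?_⟩
    have h4 := polar_iso Q A hA ut y
    rw [hfixu] at h4
    rw [h4]
    exact h3
  have hNW₂ : ∀ y ∈ W₂, N y ∈ W₂ := fun y hy => by
    rw [hN]
    exact W₂.sub_mem (hAW₂ y hy) hy
  have hdec1 : ∀ y ∈ Y₁, ∃ β : F, ∃ v₂ ∈ W₂, y = β • ut + v₂ := by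
    intro y hy
    refine ⟨polar Q ut y / polar Q ut ut, y - (polar Q ut y / polar Q ut ut) • ut, ?_, by abel⟩
    refine (hW₂ _).mpr ⟨Y₁.sub_mem hy (Y₁.smul_mem _ hut), ?_⟩
    rw [polar_sub_right, polar_smul_right, smul_eq_mul, div_mul_cancel₀ _ hutut, sub_self]
  have claim1 : ∀ y, A y = y → polar Q ut y = 0 →
      ∃ v₂ ∈ W₂, ∃ v₃ ∈ Y₂, y = N v₂ + N v₃ := by
    intro y hy hyu
    obtain ⟨α, v, hv⟩ := hfix y hy
    have hα : α = 0 := by
      have h1 : polar Q ut y = α * polar Q ut ut := by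
        rw [hv, polar_add_right, polar_smul_right, smul_eq_mul, fix_perp Q A hA ut v hfixu,
          add_zero]
      rw [hyu] at h1
      exact (mul_eq_zero.mp h1.symm).resolve_right hutut
    obtain ⟨y₁, hy₁, y₂, hy₂, hvv⟩ := hsum v
    obtain ⟨β, v₂, hv₂, hy₁'⟩ := hdec1 y₁ hy₁
    refine ⟨v₂, hv₂, y₂, hy₂, ?_⟩
    have h5 : N v = N v₂ + N y₂ := by
      rw [hvv, hy₁', map_add, map_add, map_smul, hNut, smul_zero, zero_add]
    rw [hv, hα, zero_smul, zero_add, ← hN, h5]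
  have claimW : ∀ y ∈ W₂, A y = y → ∃ v ∈ W₂, y = N v := by
    intro y hy hfy
    obtain ⟨v₂, hv₂, v₃, hv₃, h⟩ := claim1 y hfy ((hW₂ y).mp hy).2
    refine ⟨v₂, hv₂, ?_⟩
    have hz : N v₃ = 0 := by
      apply hint
      · have h6 : N v₃ = y - N v₂ := by
          rw [h]
          abel
        rw [h6]
        exact Y₁.sub_mem (hW₂Y hy) (hW₂Y (hNW₂ v₂ hv₂))
      · exact hN2 v₃ hv₃
    rw [h, hz, add_zero]
  have claimY : ∀ y ∈ Y₂, A y = y → ∃ v ∈ Y₂, y = N v := by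
    intro y hy hfy
    obtain ⟨v₂, hv₂, v₃, hv₃, h⟩ := claim1 y hfy (horth ut hut y hy)
    refine ⟨v₃, hv₃, ?_⟩
    have hz : N v₂ = 0 := by
      apply hint
      · exact hW₂Y (hNW₂ v₂ hv₂)
      · have h6 : N v₂ = y - N v₃ := by
          rw [h]
          abel
        rw [h6]
        exact Y₂.sub_mem hy (hN2 v₃ hv₃)
    rw [h, hz, zero_add]
  have hker : ∀ y, y ∈ LinearMap.ker N ↔ A y = y := by
    intro y
    rw [LinearMap.mem_ker, hN, sub_eq_zero]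
  have hY₂ : ¬ ∀ y ∈ Y₂, N (N y) = 0 := by
    intro h0
    have e : Y₂.map N = Y₂ ⊓ LinearMap.ker N := by
      apply le_antisymm
      · rintro _ ⟨y, hy, rfl⟩
        exact ⟨hN2 y hy, LinearMap.mem_ker.mpr (h0 y hy)⟩
      · rintro y ⟨hy, hk⟩
        obtain ⟨v, hv, hyv⟩ := claimY y hy ((hker y).mp hk)
        exact ⟨v, hv, hyv.symm⟩
    have h1 := Cfsg.Agent.Lib.Helper56.OPPFIXB.finrank_map_add N Y₂
    rw [← e] at h1
    obtain ⟨k, hk⟩ := hodd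
    omega
  have hW₂N : ∀ y ∈ W₂, N (N y) = 0 := by
    by_contra hcon
    simp only [not_forall] at hcon
    obtain ⟨y₂, hy₂, ha⟩ := hcon
    apply hY₂
    intro y₃ hy₃
    by_contra hb
    obtain ⟨v₀, hv₀⟩ := finrank_le_one_iff.mp hr
    obtain ⟨c₁, hc₁⟩ := hv₀ ⟨N (N y₂), ⟨y₂, rfl⟩⟩
    obtain ⟨c₂, hc₂⟩ := hv₀ ⟨N (N y₃), ⟨y₃, rfl⟩⟩
    have hc₁' : c₁ • (v₀ : V) = N (N y₂) := congrArg Subtype.val hc₁
    have hc₂' : c₂ • (v₀ : V) = N (N y₃) := congrArg Subtype.val hc₂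
    have hc₁0 : c₁ ≠ 0 := by
      rintro rfl
      rw [zero_smul] at hc₁'
      exact ha hc₁'.symm
    have hv₀Y : (v₀ : V) ∈ Y₁ := by
      have h7 : (v₀ : V) = c₁⁻¹ • N (N y₂) := by
        rw [← hc₁', smul_smul, inv_mul_cancel₀ hc₁0, one_smul]
      rw [h7]
      exact Y₁.smul_mem _ (hW₂Y (hNW₂ _ (hNW₂ y₂ hy₂)))
    apply hb
    apply hint
    · rw [← hc₂']
      exact Y₁.smul_mem _ hv₀Y
    · exact hN2 _ (hN2 y₃ hy₃)
  have hndW : NDsub Q W₂ := by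
    intro z hz hzy
    apply hnd z (hW₂Y hz)
    intro y hy
    obtain ⟨β, v₂, hv₂, rfl⟩ := hdec1 y hy
    rw [polar_add_right, polar_smul_right, hzy v₂ hv₂, add_zero, polar_comm,
      ((hW₂ z).mp hz).2, smul_zero]
  have heven := Cfsg.Agent.Lib.Helper56.OPPFIXB.even_rank_on h2 Q A hA W₂ hndW hAW₂ (by
    intro v hv
    rw [← hNdef, hW₂N v hv, map_zero])
  rw [← hNdef] at heven
  have e : W₂.map N = W₂ ⊓ LinearMap.ker N := by
    apply le_antisymm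
    · rintro _ ⟨y, hy, rfl⟩
      exact ⟨hNW₂ y hy, LinearMap.mem_ker.mpr (hW₂N y hy)⟩
    · rintro y ⟨hy, hk⟩
      obtain ⟨v, hv, hyv⟩ := claimW y hy ((hker y).mp hk)
      exact ⟨v, hv, hyv.symm⟩
  have h1 := Cfsg.Agent.Lib.Helper56.OPPFIXB.finrank_map_add N W₂
  rw [← e] at h1
  have hY₁ : finrank F ↥Y₁ = finrank F ↥W₂ + 1 := by
    have hsup : Submodule.span F {ut} ⊔ W₂ = Y₁ := by
      apply le_antisymm
      · exact sup_le ((Submodule.span_singleton_le_iff_mem ut Y₁).mpr hut) hW₂Y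
      · intro y hy
        obtain ⟨β, v₂, hv₂, rfl⟩ := hdec1 y hy
        exact Submodule.add_mem _
          (Submodule.mem_sup_left (Submodule.smul_mem _ _ (Submodule.mem_span_singleton_self ut)))
          (Submodule.mem_sup_right hv₂)
    have hinf : Submodule.span F {ut} ⊓ W₂ = ⊥ := by
      rw [eq_bot_iff]
      rintro z ⟨hz1, hz2⟩
      obtain ⟨c, rfl⟩ := Submodule.mem_span_singleton.mp hz1
      have h3 := ((hW₂ _).mp hz2).2
      rw [polar_smul_right, smul_eq_mul] at h3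
      have hc : c = 0 := (mul_eq_zero.mp h3).resolve_right hutut
      rw [hc, zero_smul]
      exact Submodule.zero_mem _
    have h3 := Submodule.finrank_sup_add_finrank_inf_eq (Submodule.span F {ut}) W₂
    rw [hsup, hinf, finrank_bot, finrank_span_singleton hut0] at h3
    omega
  refine ⟨W₂.map N, ?_, ?_, ?_, ?_, ?_⟩
  · rintro _ ⟨y, hy, rfl⟩
    exact hW₂Y (hNW₂ y hy)
  · rintro _ ⟨y, hy, rfl⟩
    have h8 : A (N y) = N y := (hker _).mp (LinearMap.mem_ker.mpr (hW₂N y hy))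
    rw [hN] at h8 ⊢
    exact fix_sing h2 Q A hA y h8
  · rintro _ ⟨y, hy, rfl⟩
    rw [polar_comm]
    exact ((hW₂ _).mp (hNW₂ y hy)).2
  · omega
  · obtain ⟨k, hk⟩ := heven
    omega

/-- the case `w = u₁ + n ∈ Y₁` with `n ∈ (A - 1) V` -/
theorem core1 (h2 : (2 : F) ≠ 0) (Q : QuadraticForm F V) (A : V →ₗ[F] V)
    (hA : ∀ v, Q (A v) = Q v) (Y₁ Y₂ : Submodule F V)
    (hsum : ∀ v : V, ∃ y₁ ∈ Y₁, ∃ y₂ ∈ Y₂, v = y₁ + y₂)
    (horth : ∀ y₁ ∈ Y₁, ∀ y₂ ∈ Y₂, polar Q y₁ y₂ = 0)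
    (hA1 : ∀ y ∈ Y₁, A y ∈ Y₁) (hA2 : ∀ y ∈ Y₂, A y ∈ Y₂)
    (hnd : NDsub Q Y₁)
    (u₁ : V) (hfixu : A u₁ = u₁) (hQu : Q u₁ ≠ 0)
    (hfix : ∀ y, A y = y → ∃ α : F, ∃ v : V, y = α • u₁ + (A v - v))
    (hr : finrank F ↥(LinearMap.range ((A - LinearMap.id) ∘ₗ (A - LinearMap.id))) ≤ 1)
    (hodd : Odd (finrank F ↥Y₂))
    (v₁ : V) (hw : u₁ + (A v₁ - v₁) ∈ Y₁) (hwfix : A (u₁ + (A v₁ - v₁)) = u₁ + (A v₁ - v₁)) :
    ∃ ut ∈ Y₁, Q ut = Q u₁ ∧ ∃ L : Submodule F V, L ≤ Y₁ ∧ (∀ v ∈ L, Q v = 0) ∧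
      (∀ v ∈ L, polar Q v ut = 0) ∧
      2 * finrank F ↥L + 1 = finrank F ↥Y₁ ∧ finrank F ↥Y₁ % 4 = 1 := by
  have hnfix : A (A v₁ - v₁) = A v₁ - v₁ := by
    have h1 := hwfix
    rw [map_add, hfixu] at h1
    exact add_left_cancel h1
  have hQn : Q (A v₁ - v₁) = 0 := fix_sing h2 Q A hA v₁ hnfix
  have hQw : Q (u₁ + (A v₁ - v₁)) = Q u₁ := by
    rw [QuadraticMap.map_add Q u₁ (A v₁ - v₁), hQn, fix_perp Q A hA u₁ v₁ hfixu, add_zero, add_zero]
  have hfix' : ∀ y, A y = y → ∃ α : F, ∃ v : V, y = α • (u₁ + (A v₁ - v₁)) + (A v - v) := by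
    intro y hy
    obtain ⟨α, v, hv⟩ := hfix y hy
    refine ⟨α, v - α • v₁, ?_⟩
    rw [hv, map_sub, map_smul, smul_add, smul_sub]
    abel
  obtain ⟨L, hL1, hL2, hL3, hL4, hL5⟩ := core h2 Q A hA Y₁ Y₂ hsum horth hA1 hA2 hnd
    (u₁ + (A v₁ - v₁)) hw hwfix (by rw [hQw]; exact hQu) hfix' hr hodd
  exact ⟨u₁ + (A v₁ - v₁), hw, hQw, L, hL1, hL2, hL3, hL4, hL5⟩

theorem core2 (h2 : (2 : F) ≠ 0) (Q : QuadraticForm F V) (A : V →ₗ[F] V)
    (hA : ∀ v, Q (A v) = Q v) (Y₁ Y₂ : Submodule F V)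
    (hsum : ∀ v : V, ∃ y₁ ∈ Y₁, ∃ y₂ ∈ Y₂, v = y₁ + y₂)
    (horth : ∀ y₁ ∈ Y₁, ∀ y₂ ∈ Y₂, polar Q y₁ y₂ = 0)
    (hA1 : ∀ y ∈ Y₁, A y ∈ Y₁) (hA2 : ∀ y ∈ Y₂, A y ∈ Y₂)
    (hnd1 : NDsub Q Y₁) (hnd2 : NDsub Q Y₂)
    (u₁ : V) (hfixu : A u₁ = u₁) (hQu : Q u₁ ≠ 0)
    (hfix : ∀ y, A y = y → ∃ α : F, ∃ v : V, y = α • u₁ + (A v - v))
    (hr : finrank F ↥(LinearMap.range ((A - LinearMap.id) ∘ₗ (A - LinearMap.id))) ≤ 1)
    (hodd1 : Odd (finrank F ↥Y₁)) (hodd2 : Odd (finrank F ↥Y₂)) :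
    (∃ ut ∈ Y₁, Q ut = Q u₁ ∧ ∃ L : Submodule F V, L ≤ Y₁ ∧ (∀ v ∈ L, Q v = 0) ∧
      (∀ v ∈ L, polar Q v ut = 0) ∧
      2 * finrank F ↥L + 1 = finrank F ↥Y₁ ∧ finrank F ↥Y₁ % 4 = 1) ∨
    (∃ ut ∈ Y₂, Q ut = Q u₁ ∧ ∃ L : Submodule F V, L ≤ Y₂ ∧ (∀ v ∈ L, Q v = 0) ∧
      (∀ v ∈ L, polar Q v ut = 0) ∧
      2 * finrank F ↥L + 1 = finrank F ↥Y₂ ∧ finrank F ↥Y₂ % 4 = 1) := by
  have hint : ∀ z, z ∈ Y₁ → z ∈ Y₂ → z = 0 := by
    intro z hz1 hz2
    apply hnd1 z hz1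
    intro y hy
    rw [polar_comm]
    exact horth y hy z hz2
  obtain ⟨w, hw, w', hw', hu⟩ := hsum u₁
  -- `w`, `w'` are fixed
  have hdiff : A w - w = w' - A w' := by
    have h1 : A w + A w' = w + w' := by
      rw [← map_add, ← hu, hfixu]
    have h3 : A w - w = w' - A w' := by
      rw [sub_eq_sub_iff_add_eq_add, h1, add_comm]
    exact h3
  have hz : A w - w = 0 := by
    apply hint
    · exact Y₁.sub_mem (hA1 w hw) hw
    · rw [hdiff]
      exact Y₂.sub_mem hw' (hA2 w' hw')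
  have hwf : A w = w := sub_eq_zero.mp hz
  have hwf' : A w' = w' := by
    have h1 : w' - A w' = 0 := by rw [← hdiff, hz]
    exact (sub_eq_zero.mp h1).symm
  obtain ⟨α, v₁, hα⟩ := hfix w hwf
  obtain ⟨α', v₁', hα'⟩ := hfix w' hwf'
  have hn : A (A v₁ - v₁) = A v₁ - v₁ := by
    have h1 : A v₁ - v₁ = w - α • u₁ := by
      rw [hα]
      abel
    rw [h1, map_sub, map_smul, hwf, hfixu]
  have hn' : A (A v₁' - v₁') = A v₁' - v₁' := by
    have h1 : A v₁' - v₁' = w' - α' • u₁ := by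
      rw [hα']
      abel
    rw [h1, map_sub, map_smul, hwf', hfixu]
  have huu : polar Q u₁ u₁ ≠ 0 := by
    rw [polar_self']
    exact mul_ne_zero h2 hQu
  -- `α α' = 0`
  have hprod : α * α' = 0 := by
    have h1 : polar Q w w' = 0 := horth w hw w' hw'
    rw [hα, hα', polar_add_left, polar_add_right, polar_add_right, polar_smul_left,
      polar_smul_right, polar_smul_left, polar_smul_right,
      fix_perp Q A hA u₁ v₁' hfixu, fix_perp Q A hA (A v₁ - v₁) v₁' hn,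
      polar_comm Q (A v₁ - v₁) u₁, fix_perp Q A hA u₁ v₁ hfixu] at h1
    simp only [smul_eq_mul, mul_zero, add_zero] at h1
    rcases mul_eq_zero.mp h1 with h | h
    · rw [h, zero_mul]
    · rcases mul_eq_zero.mp h with h' | h'
      · rw [h', mul_zero]
      · exact absurd h' huu
  -- `α + α' = 1`
  have hsum1 : α + α' = 1 := by
    have h1 : (1 - α - α') • u₁ = A (v₁ + v₁') - (v₁ + v₁') := by
      have h3 : u₁ = α • u₁ + (A v₁ - v₁) + (α' • u₁ + (A v₁' - v₁')) := by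
        rw [← hα, ← hα']
        exact hu
      rw [map_add, sub_smul, sub_smul, one_smul]
      nth_rewrite 1 [h3]
      abel
    have h4 : A (A (v₁ + v₁') - (v₁ + v₁')) = A (v₁ + v₁') - (v₁ + v₁') := by
      rw [← h1, map_smul, hfixu]
    have h5 := fix_sing h2 Q A hA (v₁ + v₁') h4
    rw [← h1, QuadraticMap.map_smul Q (1 - α - α') u₁, smul_eq_mul] at h5
    have h6 : 1 - α - α' = 0 := by
      rcases mul_eq_zero.mp h5 with h | h
      · exact mul_self_eq_zero.mp h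
      · exact absurd h hQu
    linear_combination -h6
  rcases mul_eq_zero.mp hprod with h0 | h0
  · -- `α = 0`, `α' = 1`: `w' = u₁ + n'`
    right
    have h1 : α' = 1 := by rw [h0, zero_add] at hsum1; exact hsum1
    rw [h1, one_smul] at hα'
    exact core1 h2 Q A hA Y₂ Y₁
      (fun v => by
        obtain ⟨y₁, hy₁, y₂, hy₂, hv⟩ := hsum v
        exact ⟨y₂, hy₂, y₁, hy₁, by rw [hv, add_comm]⟩)
      (fun y₂ hy₂ y₁ hy₁ => by rw [polar_comm]; exact horth y₁ hy₁ y₂ hy₂)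
      hA2 hA1 hnd2 u₁ hfixu hQu hfix hr hodd1 v₁' (hα' ▸ hw') (by rw [← hα']; exact hwf')
  · -- `α' = 0`, `α = 1`: `w = u₁ + n`
    left
    have h1 : α = 1 := by rw [h0, add_zero] at hsum1; exact hsum1
    rw [h1, one_smul] at hα
    exact core1 h2 Q A hA Y₁ Y₂ hsum horth hA1 hA2 hnd1 u₁ hfixu hQu hfix hr hodd2 v₁
      (hα ▸ hw) (by rw [← hα]; exact hwf)

end gen

open Cfsg.Agent.Lib.Helper45.OMiStmt

theorem main : PFixCM.{u} := by
  intro F _ _ hoddq d m hd a b hab hm x hx u₁ hu₁ hQu hfix hr W hWm hWnd hStab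
  classical
  have h2 : (2 : F) ≠ 0 := Cfsg.Agent.Lib.Helper10.HypINVOL.two_ne_zero_of_odd hoddq
  have hS : Sep (minusQ (d - 1) F a b) := sep_minusQ h2 (d - 1) a b hab
  obtain ⟨A, hAdef⟩ : ∃ A : (M d → F) →ₗ[F] (M d → F),
      A = Matrix.toLin' (x : Matrix (M d) (M d) F) := ⟨_, rfl⟩
  have hA : ∀ v, minusQ (d - 1) F a b (A v) = minusQ (d - 1) F a b v := by
    intro v
    rw [hAdef, Matrix.toLin'_apply]
    exact hx v v
  have hWnd' : NDsub (minusQ (d - 1) F a b) W := by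
    intro y hy hyz
    by_contra hy0
    obtain ⟨-, z, hz, hz0⟩ := hWnd y hy hy0
    exact hz0 (hyz z hz)
  have hAW : ∀ w ∈ W, A w ∈ W := by
    intro w hw
    rw [hAdef]
    exact hStab (Submodule.mem_map_of_mem hw)
  have hinf : W ⊓ LinearMap.BilinForm.orthogonal (polarBilin (minusQ (d - 1) F a b)) W = ⊥ := by
    rw [eq_bot_iff]
    intro v hv
    obtain ⟨hv1, hv2⟩ := Submodule.mem_inf.1 hv
    by_contra hv0
    have hv0' : v ≠ 0 := fun h => hv0 ((Submodule.mem_bot F).2 h)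
    obtain ⟨⟨y, hy, hyv⟩, -⟩ := hWnd v hv1 hv0'
    exact hyv (hv2 y hy)
  have h1 : finrank F ↥(LinearMap.BilinForm.orthogonal (polarBilin (minusQ (d - 1) F a b)) W)
      = finrank F (M d → F) - finrank F ↥W :=
    LinearMap.BilinForm.finrank_orthogonal (nondegenerate_of_sep hS) W
  have h3 : finrank F (M d → F) = 2 * d := by
    rw [Module.finrank_pi]
    simp
    omega
  have h4 : finrank F ↥W ≤ finrank F (M d → F) := Submodule.finrank_le W
  rw [h3] at h1 h4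
  have hdim : finrank F ↥W +
      finrank F ↥(LinearMap.BilinForm.orthogonal (polarBilin (minusQ (d - 1) F a b)) W)
      = 2 * d := by
    rw [h1]
    omega
  have htop : W ⊔ LinearMap.BilinForm.orthogonal (polarBilin (minusQ (d - 1) F a b)) W = ⊤ := by
    apply Submodule.eq_top_of_finrank_eq
    have h := Submodule.finrank_sup_add_finrank_inf_eq W
      (LinearMap.BilinForm.orthogonal (polarBilin (minusQ (d - 1) F a b)) W)
    rw [hinf, finrank_bot, add_zero] at h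
    rw [h, hdim, h3]
  have hsum : ∀ v : M d → F, ∃ y₁ ∈ W,
      ∃ y₂ ∈ LinearMap.BilinForm.orthogonal (polarBilin (minusQ (d - 1) F a b)) W,
        v = y₁ + y₂ := by
    intro v
    have hv : v ∈ W ⊔ LinearMap.BilinForm.orthogonal (polarBilin (minusQ (d - 1) F a b)) W := by
      rw [htop]
      exact Submodule.mem_top
    obtain ⟨y₁, hy₁, y₂, hy₂, h⟩ := Submodule.mem_sup.mp hv
    exact ⟨y₁, hy₁, y₂, hy₂, h.symm⟩
  have horth : ∀ y₁ ∈ W,
      ∀ y₂ ∈ LinearMap.BilinForm.orthogonal (polarBilin (minusQ (d - 1) F a b)) W,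
        polar (minusQ (d - 1) F a b) y₁ y₂ = 0 := fun y₁ hy₁ y₂ hy₂ => hy₂ y₁ hy₁
  have hAinj : Function.Injective A := by
    rw [← LinearMap.ker_eq_bot, eq_bot_iff]
    intro v hv
    rw [LinearMap.mem_ker] at hv
    rw [Submodule.mem_bot]
    apply hS v
    intro y
    rw [← polar_iso (minusQ (d - 1) F a b) A hA v y, hv]
    simp [polar]
  have hmap : W.map A = W := by
    apply Submodule.eq_of_le_of_finrank_le
    · rintro _ ⟨w, hw, rfl⟩
      exact hAW w hw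
    · rw [← (Submodule.equivMapOfInjective _ hAinj W).finrank_eq]
  have hAW' : ∀ y ∈ LinearMap.BilinForm.orthogonal (polarBilin (minusQ (d - 1) F a b)) W,
      A y ∈ LinearMap.BilinForm.orthogonal (polarBilin (minusQ (d - 1) F a b)) W := by
    intro y hy g hg
    rw [← hmap] at hg
    obtain ⟨g', hg', rfl⟩ := hg
    show polar (minusQ (d - 1) F a b) (A g') (A y) = 0
    rw [polar_iso (minusQ (d - 1) F a b) A hA g' y]
    exact hy g' hg'
  have hnd' : NDsub (minusQ (d - 1) F a b)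
      (LinearMap.BilinForm.orthogonal (polarBilin (minusQ (d - 1) F a b)) W) :=
    ndsub_orth hS hinf
  have hfixu : A u₁ = u₁ := by
    rw [hAdef, Matrix.toLin'_apply]
    exact (mem_FxM _ _).mp hu₁
  have hfix' : ∀ y, A y = y → ∃ α : F, ∃ v, y = α • u₁ + (A v - v) := by
    intro y hy
    have hyF : y ∈ FxM (x : Matrix (M d) (M d) F) := by
      rw [mem_FxM, ← Matrix.toLin'_apply, ← hAdef]
      exact hy
    obtain ⟨s, hs, n, hn, hsn⟩ := Submodule.mem_sup.mp (hfix hyF)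
    obtain ⟨α, rfl⟩ := Submodule.mem_span_singleton.mp hs
    obtain ⟨v, rfl⟩ := hn
    refine ⟨α, v, ?_⟩
    rw [← hsn, hAdef]
    rfl
  have hr' : finrank F ↥(LinearMap.range ((A - LinearMap.id) ∘ₗ (A - LinearMap.id))) ≤ 1 := by
    rw [hAdef]
    exact hr
  have hoddW : Odd (finrank F ↥W) := by rw [hWm]; exact hm
  have hoddW' : Odd (finrank F
      ↥(LinearMap.BilinForm.orthogonal (polarBilin (minusQ (d - 1) F a b)) W)) := by
    obtain ⟨k, hk⟩ := hm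
    rw [hWm] at hdim
    exact ⟨d - k - 1, by omega⟩
  rcases core2 h2 (minusQ (d - 1) F a b) A hA W _ hsum horth hAW hAW' hWnd' hnd' u₁ hfixu hQu
    hfix' hr' hoddW hoddW' with ⟨ut, hut, hQut, L, hL1, hL2, hL3, hL4, hL5⟩ |
    ⟨ut, hut, hQut, L, hL1, hL2, hL3, hL4, hL5⟩
  · left
    refine ⟨by rw [← hWm]; exact hL5, ut, hut, hQut, L, hL1, hL2, hL3, hL4⟩
  · right
    refine ⟨?_, ut, ?_, hQut, L, ?_, hL2, hL3, ?_⟩
    · rw [hWm] at hdim
      have h5 : 2 * d - m =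
          finrank F ↥(LinearMap.BilinForm.orthogonal (polarBilin (minusQ (d - 1) F a b)) W) := by
        omega
      rw [h5]
      exact hL5
    · intro w hw
      have h6 : polar (minusQ (d - 1) F a b) w ut = 0 := hut w hw
      rw [polar_comm] at h6
      exact h6
    · intro v hv w hw
      have h6 : polar (minusQ (d - 1) F a b) w v = 0 := hL1 hv w hw
      rw [polar_comm] at h6
      exact h6
    · have h7 : 2 * d - finrank F ↥W =
          finrank F ↥(LinearMap.BilinForm.orthogonal (polarBilin (minusQ (d - 1) F a b)) W) := by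
        omega
      rw [h7]
      exact hL4

end Cfsg.Agent.Lib.Helper20.OMiPFIXCM
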