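import Mathlib
import Cfsg.Prelude.Def_LieRecognition

set_option autoImplicit false

namespace Cfsg.Agent.Lib.Helper20.RankOne

open Cfsg

variable {G Ω : Type*} [Group G] [MulAction G Ω] {a : Ω} {t : G} {Q : Subgroup G}

lemma t_inv (hS : IsRankOneSetup G Ω a t Q) : t⁻¹ = t :=
  inv_eq_of_mul_eq_one_left hS.mul_self

lemma tt_smul (hS : IsRankOneSetup G Ω a t Q) (b : Ω) : t • t • b = b := by
  rw [smul_smul, hS.mul_self, one_smul]

/-- `t` normalises the two-point stabiliser -/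
lemma conj_t_mem (hS : IsRankOneSetup G Ω a t Q) {h : G}
    (hh : h ∈ MulAction.stabilizer G a ⊓ MulAction.stabilizer G (t • a)) :
    t * h * t ∈ MulAction.stabilizer G a ⊓ MulAction.stabilizer G (t • a) := by
  obtain ⟨h1, h2⟩ := Subgroup.mem_inf.mp hh
  rw [MulAction.mem_stabilizer_iff] at h1 h2
  refine Subgroup.mem_inf.mpr ⟨?_, ?_⟩
  · rw [MulAction.mem_stabilizer_iff, mul_smul, mul_smul, h2, tt_smul hS]
  · rw [MulAction.mem_stabilizer_iff, mul_smul, mul_smul, tt_smul hS, h1]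

/-- uniqueness of the canonical form `g h t f` -/
lemma canonical_unique (hS : IsRankOneSetup G Ω a t Q) {g h f g' h' f' : G}
    (hg : g ∈ Q) (hh : h ∈ MulAction.stabilizer G a ⊓ MulAction.stabilizer G (t • a)) (hf : f ∈ Q)
    (hg' : g' ∈ Q) (hh' : h' ∈ MulAction.stabilizer G a ⊓ MulAction.stabilizer G (t • a))
    (hf' : f' ∈ Q) (e : g * h * t * f = g' * h' * t * f') : g = g' ∧ h = h' ∧ f = f' := by
  have hti := t_inv hS
  have ga := hS.le hg
  have ga' := hS.le hg'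
  have ha := (Subgroup.mem_inf.mp hh).1
  have ha' := (Subgroup.mem_inf.mp hh').1
  have e1 : f' * f⁻¹ = t⁻¹ * (h'⁻¹ * g'⁻¹ * g * h) * t := by
    have : f' = (g' * h' * t)⁻¹ * (g * h * t * f) := by rw [e]; group
    rw [this]; group
  have hst : (h'⁻¹ * g'⁻¹ * g * h) ∈ MulAction.stabilizer G a :=
    Subgroup.mul_mem _ (Subgroup.mul_mem _ (Subgroup.mul_mem _ (Subgroup.inv_mem _ ha')
      (Subgroup.inv_mem _ ga')) ga) ha
  have hff : f' * f⁻¹ ∈ Q ⊓ MulAction.stabilizer G (t • a) := by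
    refine Subgroup.mem_inf.mpr ⟨Q.mul_mem hf' (Q.inv_mem hf), ?_⟩
    rw [MulAction.mem_stabilizer_iff, e1, hti, mul_smul, mul_smul, tt_smul hS]
    rw [MulAction.mem_stabilizer_iff] at hst
    rw [hst]
  rw [hS.inf_eq_bot, Subgroup.mem_bot] at hff
  have hf_eq : f' = f := mul_inv_eq_one.mp hff
  subst hf_eq
  have e2 : g * h = g' * h' := by
    have := mul_right_cancel (mul_right_cancel e)
    exact this
  have e3 : g'⁻¹ * g = h' * h⁻¹ := by
    calc g'⁻¹ * g = g'⁻¹ * (g * h) * h⁻¹ := by group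
      _ = g'⁻¹ * (g' * h') * h⁻¹ := by rw [e2]
      _ = h' * h⁻¹ := by group
  have hgg : g'⁻¹ * g ∈ Q ⊓ MulAction.stabilizer G (t • a) := by
    refine Subgroup.mem_inf.mpr ⟨Q.mul_mem (Q.inv_mem hg') hg, ?_⟩
    rw [e3]
    exact Subgroup.mul_mem _ (Subgroup.mem_inf.mp hh').2 (Subgroup.inv_mem _ (Subgroup.mem_inf.mp hh).2)
  rw [hS.inf_eq_bot, Subgroup.mem_bot] at hgg
  have hg_eq : g = g' := (inv_mul_eq_one.mp hgg).symm
  subst hg_eq
  exact ⟨rfl, mul_left_cancel e2, rfl⟩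

end Cfsg.Agent.Lib.Helper20.RankOne
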