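import Mathlib
import Cfsg.Agent.Lib.Helper79.SNStmt
import Cfsg.Agent.Lib.Helper3.TDTak
import Cfsg.Agent.Lib.Helper3.MGroup

set_option autoImplicit false

/-! S4931/DEGP: `A ⊴ H` of index prime to `p`, `θ ∈ Irr(H)` trivial on the commutators of `A`:
then `p ∤ θ(1)`. -/

namespace Cfsg.Agent.Lib.Helper20.SNDEGP

open Cfsg Cfsg.Agent.Lib.Helper80.Integrality Cfsg.Agent.Lib.Helper80.Restrict
open Cfsg.Agent.Lib.CT.Wedderburn Cfsg.Agent.Lib.CT.Orth
open Cfsg.Agent.Lib.CT.FrobRec Cfsg.Agent.Lib.CT.IndChar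
open Cfsg.Agent.Lib.CT.LinChar
open Cfsg.Agent.Lib.Helper3.TDBasic Cfsg.Agent.Lib.Helper3.TDFrob
open Cfsg.Agent.Lib.Helper79.SNStmt
open scoped commutatorElement

universe u

theorem main : DegP.{u} := by
  intro H _ _ p hp A hA hpA θ hθ hdvd
  classical
  haveI := hA
  haveI : Fintype H := Fintype.ofFinite H
  haveI : Fintype A := Fintype.ofFinite A
  haveI := finite_irrCharacter A
  haveI : Fintype (IrrCharacter A) := Fintype.ofFinite _
  have hΦ : IsCharacter A (fun a : A => (θ : H → ℂ) a) :=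
    Cfsg.Agent.Lib.CT.Ops.isCharacter_comp_hom A.subtype (isCharacter_of_irr θ.2)
  obtain ⟨m, hm1, -, hm3, -⟩ := exists_mult hΦ
  have hpos : 0 < charDegree (fun a : A => (θ : H → ℂ) a) := charDegree_pos θ
  obtain ⟨μ, hμ⟩ : ∃ μ : IrrCharacter A, m μ ≠ 0 := by
    by_contra hcon
    push_neg at hcon
    rw [hm3] at hpos
    simp [hcon] at hpos
  have hcon : classInner (fun a : A => (θ : H → ℂ) a) (μ : A → ℂ) ≠ 0 := by
    rw [hm1 μ]; exact_mod_cast hμ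
  have hμk : ∀ a b : A, (μ : A → ℂ) ⁅a, b⁆ = (μ : A → ℂ) 1 := by
    intro a b
    apply Cfsg.Agent.Lib.Helper3.MGroup.constituent_apply_eq hΦ μ.2 hcon
    exact hθ a a.2 b b.2
  have hμ1 : (μ : A → ℂ) 1 = 1 :=
    Cfsg.Agent.Lib.Helper3.MGroup.apply_one_eq_one_of_comm μ.2 hμk
  have hdeg : charDegree (μ : A → ℂ) = 1 := charDegree_of_apply_one hμ1
  obtain ⟨-, h2⟩ := Cfsg.Agent.Lib.Helper3.TDBasic.deg_of_constituent A μ θ hcon
  rw [hdeg, Nat.div_one] at h2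
  exact hpA (hdvd.trans h2)

end Cfsg.Agent.Lib.Helper20.SNDEGP
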