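import Mathlib
import Cfsg.Agent.Lib.Helper41.SubfStmt
import Cfsg.Agent.Lib.Helper37.EluStmt
import Cfsg.Agent.Lib.Helper82.EluBLK
import Cfsg.Agent.Lib.Helper65.EluFIXMOD
import Cfsg.Agent.Lib.Helper40.PrimeElts
import Cfsg.Agent.Lib.Helper40.RootPow
import Cfsg.Agent.Lib.Helper40.SSConj

set_option autoImplicit false

namespace Cfsg.Agent.Lib.Helper20.SubfBADI

universe u

open Cfsg.Agent.Lib.Helper41.SubfStmt

theorem cast_pow_eq_one_of_dvd {r a j : ℕ} (ha : 1 ≤ a) (h : r ∣ a ^ j - 1) :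
    ((a : ℕ) : ZMod r) ^ j = 1 := by
  have h1 : 1 ≤ a ^ j := Nat.one_le_pow _ _ ha
  have h2 := (ZMod.natCast_eq_zero_iff (a ^ j - 1) r).mpr h
  rw [Nat.cast_sub h1, Nat.cast_pow, Nat.cast_one, sub_eq_zero] at h2
  exact h2

theorem dvd_of_cast_pow_eq_one {r a j : ℕ} (ha : 1 ≤ a) (h : ((a : ℕ) : ZMod r) ^ j = 1) :
    r ∣ a ^ j - 1 := by
  have h1 : 1 ≤ a ^ j := Nat.one_le_pow _ _ ha
  apply (ZMod.natCast_eq_zero_iff (a ^ j - 1) r).mp
  rw [Nat.cast_sub h1, Nat.cast_pow, Nat.cast_one, h, sub_self]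

theorem main (h : RootMult.{u}) : BadI.{u} := by
  intro F _ _ p _ _ n hn F₀ k q₀ hk hq₀ hq r _ hr2 hrp hrq j hjn hrj hrj0
  classical
  have hr : r.Prime := Fact.out
  have hpp : p.Prime := Fact.out
  letI : Fintype ↥F₀ := Fintype.ofFinite _
  have hq₀' : Fintype.card ↥F₀ = q₀ := by rw [← Nat.card_eq_fintype_card, hq₀]
  have hq1 : 1 < Fintype.card F := Fintype.one_lt_card
  have hq01 : 1 < q₀ := by rw [← hq₀']; exact Fintype.one_lt_card
  have hr0 : (r : F) ≠ 0 := by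
    rw [Ne, CharP.cast_eq_zero_iff F p r]
    intro hd
    exact hrp ((Nat.prime_dvd_prime_iff_eq hpp hr).mp hd).symm
  have hr0' : (r : ↥F₀) ≠ 0 := by
    intro h0
    apply hr0
    have := congrArg (F₀.subtype : ↥F₀ →+* F) h0
    simpa using this
  haveI : CharP ↥F₀ p := (RingHom.charP_iff (F₀.subtype : ↥F₀ →+* F)
    (F₀.subtype : ↥F₀ →+* F).injective p).mpr inferInstance
  obtain ⟨i, hi⟩ : ∃ i, i = orderOf ((Fintype.card F : ℕ) : ZMod r) := ⟨_, rfl⟩
  have hj0 : j ≠ 0 := by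
    rintro rfl
    apply hrj0
    simp
  have hqj : ((Fintype.card F : ℕ) : ZMod r) ^ j = 1 := cast_pow_eq_one_of_dvd (by omega) hrj
  have hij : i ∣ j := hi ▸ orderOf_dvd_of_pow_eq_one hqj
  have hi0 : i ≠ 0 := by
    rintro rfl
    exact hj0 (zero_dvd_iff.mp hij)
  have hi1 : i ≠ 1 := by
    intro h1
    apply hrq
    rw [hi, orderOf_eq_one_iff] at h1
    have := dvd_of_cast_pow_eq_one (r := r) (a := Fintype.card F) (j := 1) (by omega)
      (by rw [pow_one]; exact h1)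
    rwa [pow_one] at this
  have hi2 : 2 ≤ i := by omega
  have hin : i ≤ n := (Nat.le_of_dvd (by omega) hij).trans hjn
  obtain ⟨x, hxdet, hxr, hxfix⟩ := Cfsg.Agent.Lib.Helper82.EluBLK.main.{u} F p r hrp
    (hi ▸ hi2) n 1 (by rw [mul_one, ← hi]; exact hin)
  rw [← hi, mul_one] at hxfix
  refine ⟨x, hxdet, hxr, ?_, ?_⟩
  · intro z hz
    have hzr : z ^ r = 1 := by
      have h1 := hxr
      rw [hz, smul_pow, one_pow] at h1
      have h2 := congrFun (congrFun h1 ⟨0, by omega⟩) ⟨0, by omega⟩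
      simpa using h2
    have hz1 : z = 1 := Cfsg.Agent.Lib.Helper40.PrimeElts.root_trivial r hr (hi ▸ hi1) z hzr
    rw [hz1, one_smul] at hz
    rw [hz, Matrix.toLin'_one] at hxfix
    have e0 : (LinearMap.id : (Fin n → F) →ₗ[F] (Fin n → F)) - 1 = 0 := sub_self _
    rw [e0, LinearMap.ker_zero, finrank_top, Module.finrank_fin_fun] at hxfix
    omega
  · rintro ⟨S, c, A₀, hS, hc, hconj⟩
    obtain ⟨φ, hφ⟩ : ∃ φ : ↥F₀ →+* F, φ = F₀.subtype := ⟨_, rfl⟩
    rw [← hφ] at hconj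
    have hφinj : Function.Injective φ := φ.injective
    obtain ⟨B, hB⟩ : ∃ B, B = c • A₀.map φ := ⟨_, rfl⟩
    rw [← hB] at hconj
    have hSu : IsUnit S.det := by rw [hS]; exact isUnit_one
    have hBx : B = S * x * S⁻¹ := by
      rw [hconj, Matrix.mul_assoc, Matrix.mul_nonsing_inv S hSu, Matrix.mul_one]
    have hpow : ∀ t : ℕ, (S * x * S⁻¹) ^ t = S * x ^ t * S⁻¹ := by
      intro t
      induction t with
      | zero => simp [Matrix.mul_nonsing_inv S hSu]
      | succ t ih =>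
        rw [pow_succ, ih, pow_succ]
        calc S * x ^ t * S⁻¹ * (S * x * S⁻¹) = S * x ^ t * (S⁻¹ * S) * x * S⁻¹ := by
              simp only [Matrix.mul_assoc]
          _ = S * (x ^ t * x) * S⁻¹ := by
              rw [Matrix.nonsing_inv_mul S hSu, Matrix.mul_one]; simp only [Matrix.mul_assoc]
    have hBr : B ^ r = 1 := by
      rw [hBx, hpow, hxr, Matrix.mul_one, Matrix.mul_nonsing_inv S hSu]
    have hBchar : B.charpoly = x.charpoly := by
      rw [hBx]
      exact Matrix.charpoly_units_conj (Matrix.nonsingInvUnit S hSu) x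
    have hmap_pow : ∀ M : Matrix (Fin n) (Fin n) ↥F₀, (M ^ r).map φ = (M.map φ) ^ r := by
      intro M
      have := map_pow φ.mapMatrix M r
      simpa [RingHom.mapMatrix_apply] using this
    have hcr : c ^ r * φ ((A₀ ^ r) ⟨0, by omega⟩ ⟨0, by omega⟩) = 1 := by
      have h1 := hBr
      rw [hB, smul_pow, ← hmap_pow] at h1
      have h2 := congrFun (congrFun h1 ⟨0, by omega⟩) ⟨0, by omega⟩
      simpa using h2
    obtain ⟨a, ha⟩ : ∃ a : ↥F₀, a = (A₀ ^ r) ⟨0, by omega⟩ ⟨0, by omega⟩ := ⟨_, rfl⟩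
    rw [← ha] at hcr
    have ha0 : a ≠ 0 := by
      rintro rfl
      simp at hcr
    have hrq0 : ¬ r ∣ Fintype.card ↥F₀ - 1 := by
      rw [hq₀']
      intro hd
      apply hrq
      rw [hq]
      exact hd.trans (Nat.sub_one_dvd_pow_sub_one q₀ k)
    obtain ⟨c₀, hc₀⟩ := Cfsg.Agent.Lib.Helper40.RootPow.exists_root r hr hrq0 a⁻¹
    have hc₀0 : c₀ ≠ 0 := by
      rintro rfl
      rw [zero_pow hr.ne_zero] at hc₀
      exact inv_ne_zero ha0 hc₀.symm
    have hφc₀ : φ c₀ ≠ 0 := (map_ne_zero φ).mpr hc₀0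
    have hcc : (c / φ c₀) ^ r = 1 := by
      rw [div_pow, ← map_pow, hc₀, map_inv₀, div_inv_eq_mul]
      exact hcr
    have hceq : c = φ c₀ := by
      have h1 := Cfsg.Agent.Lib.Helper40.PrimeElts.root_trivial r hr (hi ▸ hi1) _ hcc
      exact (div_eq_one_iff_eq hφc₀).mp h1
    obtain ⟨y, hy⟩ : ∃ y : Matrix (Fin n) (Fin n) ↥F₀, y = c₀ • A₀ := ⟨_, rfl⟩
    have hyB : y.map φ = B := by
      rw [hy, hB, hceq]
      ext a b
      simp [Matrix.map_apply, Matrix.smul_apply]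
    have hyr : y ^ r = 1 := by
      apply Matrix.map_injective hφinj
      show (y ^ r).map φ = (1 : Matrix (Fin n) (Fin n) ↥F₀).map φ
      rw [hmap_pow, hyB, hBr]
      simp
    have hssx := Cfsg.Agent.Lib.Helper40.SSConj.isSemisimple_toLin' x r hr0 hxr
    have hssy := Cfsg.Agent.Lib.Helper40.SSConj.isSemisimple_toLin' y r hr0' hyr
    have hmx := h F n x hssx
    have hmy := h ↥F₀ n y hssy
    have hmult : y.charpoly.rootMultiplicity 1 = x.charpoly.rootMultiplicity 1 := by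
      rw [Polynomial.eq_rootMultiplicity_map hφinj (1 : ↥F₀), map_one, ← Matrix.charpoly_map,
        hyB, hBchar]
    have hφr : (Matrix.toLin' y) ^ r = 1 := by
      have h2 := congrArg (Matrix.toLinAlgEquiv' (R := ↥F₀) (n := Fin n)) hyr
      rw [map_pow, map_one] at h2
      exact h2
    obtain ⟨m, hm⟩ := Cfsg.Agent.Lib.Helper65.EluFIXMOD.main.{u} ↥F₀ p r hrp (Fin n → ↥F₀)
      (Matrix.toLin' y) hφr ⊤ (fun v _ => Submodule.mem_top)
    rw [finrank_top, Module.finrank_fin_fun, top_inf_eq, hmy, hmult, ← hmx, hq₀'] at hm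
    have him : i = orderOf ((q₀ : ℕ) : ZMod r) * m := by omega
    apply hrj0
    apply dvd_of_cast_pow_eq_one (by omega)
    apply orderOf_dvd_iff_pow_eq_one.mp
    exact (Dvd.intro _ him.symm).trans hij

end Cfsg.Agent.Lib.Helper20.SubfBADI
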