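import Mathlib
import Cfsg.Agent.Lib.Helper41.SubfStmt
import Cfsg.Agent.Lib.Helper38.SLCard

set_option autoImplicit false

namespace Cfsg.Agent.Lib.Helper20.SubfIDX1

universe u

theorem main : Cfsg.Agent.Lib.Helper41.SubfStmt.Idx1.{u} := by
  intro F _ _ n hn F₀ q₀ hq₀
  classical
  letI : Fintype ↥F₀ := Fintype.ofFinite _
  have hq₀' : Fintype.card ↥F₀ = q₀ := by rw [← Nat.card_eq_fintype_card, hq₀]
  obtain ⟨H, hH⟩ : ∃ H : Subgroup (Matrix.SpecialLinearGroup (Fin n) F),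
      H = (Cfsg.Geo.subfieldSubgroup F₀ 1).comap (Matrix.SpecialLinearGroup.toGL :
        Matrix.SpecialLinearGroup (Fin n) F →* GL (Fin n) F) := ⟨_, rfl⟩
  rw [← hH]
  obtain ⟨f, hf⟩ : ∃ f : Matrix.SpecialLinearGroup (Fin n) ↥F₀ →*
      Matrix.SpecialLinearGroup (Fin n) F,
      f = Matrix.SpecialLinearGroup.map (F₀.subtype : ↥F₀ →+* F) := ⟨_, rfl⟩
  have hinj : Function.Injective f := by
    intro a b hab
    apply Subtype.ext
    apply Matrix.map_injective (F₀.subtype : ↥F₀ →+* F).injective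
    have := congrArg (fun s : Matrix.SpecialLinearGroup (Fin n) F =>
      (s : Matrix (Fin n) (Fin n) F)) hab
    rw [hf] at this
    exact this
  have hle : f.range ≤ H := by
    rintro _ ⟨s, rfl⟩
    rw [hH, Subgroup.mem_comap]
    refine ⟨Matrix.SpecialLinearGroup.toGL (f s),
      Subgroup.mem_sup_left ⟨Matrix.SpecialLinearGroup.toGL s, ?_⟩, by simp⟩
    apply Units.ext
    rw [hf]
    rfl
  have hcardR : Nat.card f.range = Nat.card (Matrix.SpecialLinearGroup (Fin n) ↥F₀) :=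
    (Nat.card_congr (MonoidHom.ofInjective hinj).toEquiv).symm
  have hdvd : H.index * Nat.card (Matrix.SpecialLinearGroup (Fin n) ↥F₀) ∣
      Nat.card (Matrix.SpecialLinearGroup (Fin n) F) := by
    rw [← hcardR, ← H.index_mul_card]
    exact mul_dvd_mul_left _ (Subgroup.card_dvd_of_le hle)
  have h1 := Cfsg.Agent.Lib.Helper38.SLCard.card_SL_mul (F := F) n hn
  have h2 := Cfsg.Agent.Lib.Helper38.SLCard.card_SL_mul (F := ↥F₀) n hn
  have hG := Matrix.card_GL_field (𝔽 := F) (n := n)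
  have hG₀ := Matrix.card_GL_field (𝔽 := ↥F₀) (n := n)
  rw [hq₀'] at hG₀ h2
  rw [← hG, ← hG₀, ← h1, ← h2]
  obtain ⟨c, hc⟩ := hdvd
  exact ⟨c, by rw [hc]; ring⟩

end Cfsg.Agent.Lib.Helper20.SubfIDX1
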