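import Mathlib
import Cfsg.Agent.Lib.Helper41.SubfStmt

set_option autoImplicit false

namespace Cfsg.Agent.Lib.Helper20.SubfIDX2

theorem val_prod {r : ℕ} [Fact r.Prime] {ι : Type} (s : Finset ι) (f : ι → ℕ)
    (hf : ∀ i ∈ s, f i ≠ 0) :
    padicValNat r (∏ i ∈ s, f i) = ∑ i ∈ s, padicValNat r (f i) := by
  classical
  induction s using Finset.induction_on with
  | empty => simp
  | insert a s ha ih =>
    rw [Finset.prod_insert ha, Finset.sum_insert ha,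
      padicValNat.mul (hf a (Finset.mem_insert_self a s))
        (Finset.prod_ne_zero_iff.mpr (fun i hi => hf i (Finset.mem_insert_of_mem hi))),
      ih (fun i hi => hf i (Finset.mem_insert_of_mem hi))]

theorem sub_pow_eq (a i j t : ℕ) (h : t = i + j) : a ^ t - a ^ i = a ^ i * (a ^ j - 1) := by
  rw [h, pow_add, Nat.mul_sub, mul_one]

theorem main : Cfsg.Agent.Lib.Helper41.SubfStmt.Idx2 := by
  intro n q₀ k r hn hq₀ hk hr hr2 hrk hrq hdvd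
  haveI : Fact r.Prime := ⟨hr⟩
  obtain ⟨q, hq⟩ : ∃ q, q = q₀ ^ k := ⟨_, rfl⟩
  rw [← hq] at hdvd ⊢
  have hq2 : 2 ≤ q := by
    rw [hq]
    calc 2 ≤ q₀ := hq₀
      _ = q₀ ^ 1 := (pow_one _).symm
      _ ≤ q₀ ^ k := Nat.pow_le_pow_right (by omega) hk.one_le
  have hrq' : ¬ r ∣ q := fun h => hrq (hr.dvd_of_dvd_pow (hq ▸ h))
  have hrk' : ¬ r ∣ k := fun h => hrk ((Nat.prime_dvd_prime_iff_eq hr hk).mp h)
  obtain ⟨m, rfl⟩ : ∃ m, n = m + 1 := ⟨n - 1, by omega⟩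
  rw [Fin.prod_univ_eq_prod_range (fun i => q₀ ^ (m + 1) - q₀ ^ i) (m + 1),
    Fin.prod_univ_eq_prod_range (fun i => q ^ (m + 1) - q ^ i) (m + 1),
    Finset.prod_range_succ, Finset.prod_range_succ] at hdvd
  have e0 : q₀ ^ (m + 1) - q₀ ^ m = q₀ ^ m * (q₀ - 1) := by
    rw [sub_pow_eq q₀ m 1 (m + 1) rfl, pow_one]
  have e1 : q ^ (m + 1) - q ^ m = q ^ m * (q - 1) := by
    rw [sub_pow_eq q m 1 (m + 1) rfl, pow_one]
  rw [e0, e1] at hdvd
  have hf0 : ∀ i ∈ Finset.range m, q₀ ^ (m + 1) - q₀ ^ i ≠ 0 := by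
    intro i hi
    rw [Finset.mem_range] at hi
    exact Nat.sub_ne_zero_of_lt (Nat.pow_lt_pow_right (by omega) (by omega))
  have hf1 : ∀ i ∈ Finset.range m, q ^ (m + 1) - q ^ i ≠ 0 := by
    intro i hi
    rw [Finset.mem_range] at hi
    exact Nat.sub_ne_zero_of_lt (Nat.pow_lt_pow_right (by omega) (by omega))
  obtain ⟨P₀, hP₀⟩ : ∃ P₀, P₀ = ∏ i ∈ Finset.range m, (q₀ ^ (m + 1) - q₀ ^ i) := ⟨_, rfl⟩
  obtain ⟨P, hP⟩ : ∃ P, P = ∏ i ∈ Finset.range m, (q ^ (m + 1) - q ^ i) := ⟨_, rfl⟩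
  rw [← hP₀, ← hP] at hdvd
  have hP₀0 : P₀ ≠ 0 := by rw [hP₀]; exact Finset.prod_ne_zero_iff.mpr hf0
  have hP0 : P ≠ 0 := by rw [hP]; exact Finset.prod_ne_zero_iff.mpr hf1
  have hc : 0 < (q₀ - 1) * (q - 1) := Nat.mul_pos (by omega) (by omega)
  have hdvd2 : r * P₀ ∣ P * q ^ m := by
    have h1 : (r * P₀ * q₀ ^ m) * ((q₀ - 1) * (q - 1)) ∣ (P * q ^ m) * ((q₀ - 1) * (q - 1)) := by
      have e2 : (r * P₀ * q₀ ^ m) * ((q₀ - 1) * (q - 1)) =
          r * (P₀ * (q₀ ^ m * (q₀ - 1))) * (q - 1) := by ring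
      have e3 : (P * q ^ m) * ((q₀ - 1) * (q - 1)) = P * (q ^ m * (q - 1)) * (q₀ - 1) := by ring
      rw [e2, e3]; exact hdvd
    exact (Dvd.intro _ rfl).trans (Nat.dvd_of_mul_dvd_mul_right hc h1)
  have hqm0 : q ^ m ≠ 0 := pow_ne_zero _ (by omega)
  have hval : padicValNat r (r * P₀) ≤ padicValNat r (P * q ^ m) := by
    apply (padicValNat_dvd_iff_le (mul_ne_zero hP0 hqm0)).mp
    exact pow_padicValNat_dvd.trans hdvd2
  rw [padicValNat.mul hr.ne_zero hP₀0, padicValNat_self, padicValNat.mul hP0 hqm0,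
    padicValNat.eq_zero_of_not_dvd (fun h => hrq' (hr.dvd_of_dvd_pow h)), add_zero, hP₀, hP,
    val_prod _ _ hf0, val_prod _ _ hf1] at hval
  obtain ⟨i, hi, hlt⟩ := Finset.exists_lt_of_sum_lt
    (show ∑ i ∈ Finset.range m, padicValNat r (q₀ ^ (m + 1) - q₀ ^ i) <
      ∑ i ∈ Finset.range m, padicValNat r (q ^ (m + 1) - q ^ i) by omega)
  rw [Finset.mem_range] at hi
  obtain ⟨j, hj⟩ : ∃ j, j = m + 1 - i := ⟨_, rfl⟩
  have hj2 : 2 ≤ j := by omega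
  have ea : q₀ ^ (m + 1) - q₀ ^ i = q₀ ^ i * (q₀ ^ j - 1) := sub_pow_eq q₀ i j (m + 1) (by omega)
  have eb : q ^ (m + 1) - q ^ i = q ^ i * (q ^ j - 1) := sub_pow_eq q i j (m + 1) (by omega)
  have hq0j1 : 1 < q₀ ^ j := Nat.one_lt_pow (by omega) (by omega)
  have hqj1 : 1 < q ^ j := Nat.one_lt_pow (by omega) (by omega)
  rw [ea, eb, padicValNat.mul (pow_ne_zero _ (by omega)) (by omega),
    padicValNat.mul (pow_ne_zero _ (by omega)) (by omega),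
    padicValNat.eq_zero_of_not_dvd (fun h => hrq (hr.dvd_of_dvd_pow h)),
    padicValNat.eq_zero_of_not_dvd (fun h => hrq' (hr.dvd_of_dvd_pow h)), zero_add, zero_add]
    at hlt
  refine ⟨j, hj2, by omega, dvd_of_one_le_padicValNat (by omega), ?_⟩
  intro hd
  have hlte := padicValNat.pow_sub_pow (p := r) (hr.odd_of_ne_two hr2) hq0j1 hd
    (fun h => hrq (hr.dvd_of_dvd_pow h)) (n := k) hk.ne_zero
  rw [one_pow, padicValNat.eq_zero_of_not_dvd hrk', add_zero, ← pow_mul, mul_comm, pow_mul,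
    ← hq] at hlte
  omega

end Cfsg.Agent.Lib.Helper20.SubfIDX2
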