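import Mathlib
import Cfsg.Agent.Lib.Helper41.SubfStmt
import Cfsg.Agent.Lib.Helper40.PrimeFix

set_option autoImplicit false

namespace Cfsg.Agent.Lib.Helper20.SubfZONE

universe u

theorem main : Cfsg.Agent.Lib.Helper41.SubfStmt.ZOne.{u} := by
  intro F _ _ p _ _ q₀ r _ hr2 hrp hcard hval x hdet z hx
  have hr : r.Prime := Fact.out
  have hpp : p.Prime := Fact.out
  have hzr : z ^ r = 1 := by
    have h1 := congrArg Matrix.det hx
    rw [Matrix.det_pow, hdet, one_pow, Matrix.det_smul, Matrix.det_one, mul_one,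
      Fintype.card_fin] at h1
    exact h1.symm
  have hz0 : z ≠ 0 := by
    rintro rfl
    rw [zero_pow hr.ne_zero] at hzr
    exact zero_ne_one hzr
  have hr0 : (r : F) ≠ 0 := by
    rw [Ne, CharP.cast_eq_zero_iff F p r]
    intro hd
    exact hrp ((Nat.prime_dvd_prime_iff_eq hpp hr).mp hd).symm
  have hq1 : 1 < Fintype.card F := Fintype.one_lt_card
  have hq02 : 2 ≤ q₀ := by
    by_contra h
    have : q₀ = 0 ∨ q₀ = 1 := by omega
    rcases this with rfl | rfl <;> simp at hcard <;> omega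
  have hrdvd : r ∣ q₀ + 1 := dvd_of_one_le_padicValNat (by rw [hval])
  have hr2' := hr.two_le
  have hrndvd : ¬ r ∣ q₀ - 1 := by
    intro h
    have h2 : r ∣ (q₀ + 1) - (q₀ - 1) := Nat.dvd_sub hrdvd h
    have e : (q₀ + 1) - (q₀ - 1) = 2 := by omega
    rw [e] at h2
    have := Nat.le_of_dvd (by norm_num) h2
    omega
  have hqv : padicValNat r (Fintype.card F - 1) = 1 := by
    have e : Fintype.card F - 1 = (q₀ - 1) * (q₀ + 1) := by
      rw [hcard]
      obtain ⟨m, rfl⟩ : ∃ m, q₀ = m + 1 := ⟨q₀ - 1, by omega⟩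
      have e' : (m + 1) ^ 2 = m * (m + 1 + 1) + 1 := by ring
      rw [e']
      simp
    rw [e, padicValNat.mul (by omega) (by omega), hval, padicValNat.eq_zero_of_not_dvd hrndvd]
  by_cases hpow : ∃ d : F, d ^ r = z
  · obtain ⟨d, hd⟩ := hpow
    have hd0 : d ≠ 0 := by
      rintro rfl
      rw [zero_pow hr.ne_zero] at hd
      exact hz0 hd.symm
    have h1 : d ^ (r ^ 2) = 1 := by rw [pow_two, pow_mul, hd, hzr]
    have h2 : d ^ (Fintype.card F - 1) = 1 := FiniteField.pow_card_sub_one_eq_one d hd0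
    have ho1 : orderOf d ∣ r ^ 2 := orderOf_dvd_of_pow_eq_one h1
    have ho2 : orderOf d ∣ Fintype.card F - 1 := orderOf_dvd_of_pow_eq_one h2
    obtain ⟨i, hi, hoi⟩ := (Nat.dvd_prime_pow hr).mp ho1
    have hi1 : i ≤ 1 := by
      rw [hoi] at ho2
      have := (padicValNat_dvd_iff_le (by omega : Fintype.card F - 1 ≠ 0)).mp ho2
      omega
    have hdr : d ^ r = 1 := by
      apply orderOf_dvd_iff_pow_eq_one.mp
      rw [hoi]
      exact (pow_dvd_pow r hi1).trans (by rw [pow_one])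
    rw [hx, ← hd, hdr, one_smul]
  · exfalso
    push_neg at hpow
    refine Cfsg.Agent.Lib.Helper40.PrimeFix.nonpower_arith r hr0 hr.one_le x hdet z hpow hx
      ⟨?_, fun h => absurd h hr2⟩
    rw [hqv, padicValNat_self]

end Cfsg.Agent.Lib.Helper20.SubfZONE
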