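import Mathlib
import Cfsg.Agent.Lib.Helper14.TC3Stmt
import Cfsg.Agent.Lib.Helper3.TDTak

set_option autoImplicit false

/-! S4460/TAK3: Taketa for three degrees: a monomial group with degrees in `{1, m, n}` has
`G''' = 1`. -/

namespace Cfsg.Agent.Lib.Helper20.TC3TAK3

open Cfsg Cfsg.Agent.Lib.Helper80.Integrality Cfsg.Agent.Lib.Helper80.Restrict
open Cfsg.Agent.Lib.CT.Wedderburn Cfsg.Agent.Lib.CT.Orth
open Cfsg.Agent.Lib.CT.FrobRec Cfsg.Agent.Lib.CT.IndChar
open Cfsg.Agent.Lib.CT.LinChar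
open Cfsg.Agent.Lib.Helper3.TDBasic Cfsg.Agent.Lib.Helper3.TDFrob Cfsg.Agent.Lib.Helper3.TDTak
open Cfsg.Agent.Lib.Helper14.TC3Stmt
open scoped ComplexConjugate commutatorElement

universe u
variable {G : Type u} [Group G]

/-- If all irreducible characters of degree `< [G:U]` are trivial on `D`, then `D ≤ U`. -/
theorem le_of_lower_trivial [Fintype G] (U : Subgroup G) (D : Subgroup G)
    (hlow : ∀ φ : IrrCharacter G, charDegree (φ : G → ℂ) < U.index →
      ∀ g ∈ D, (φ : G → ℂ) g = (φ : G → ℂ) 1) : D ≤ U := by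
  classical
  haveI := finite_irrCharacter G
  haveI := Fintype.ofFinite (IrrCharacter G)
  haveI : Fintype U := Fintype.ofFinite U
  have hΦ : IsCharacter G (indFun U (fun _ => (1 : ℂ))) :=
    isCharacter_indFun U _ Cfsg.Agent.Lib.CT.Ops.isCharacter_one
  obtain ⟨mm, hmm1, hmm2, hmm3, -⟩ := exists_mult hΦ
  let triv : IrrCharacter G := ⟨fun _ => 1, Cfsg.Agent.Lib.CT.Ops.isIrrCharacter_one⟩
  have hdtriv : charDegree (triv : G → ℂ) = 1 := charDegree_of_apply_one rfl
  have hmtriv : mm triv = 1 := by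
    have h1 := hmm1 triv
    have h2 := frobenius_reciprocity U (fun _ => (1 : ℂ)) (fun _ : G => (1 : ℂ))
      (fun _ _ => rfl)
    have h3 : classInner (fun _ : U => (1 : ℂ)) (fun _ : U => (1 : ℂ)) = 1 := by
      unfold classInner
      have hH0 : (Nat.card U : ℂ) ≠ 0 := by exact_mod_cast Nat.card_pos.ne'
      simp only [map_one, mul_one, Finset.sum_const, Finset.card_univ, nsmul_eq_mul]
      rw [← Nat.card_eq_fintype_card]
      exact inv_mul_cancel₀ hH0
    rw [h3] at h2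
    have h4 : ((triv : IrrCharacter G) : G → ℂ) = fun _ => (1 : ℂ) := rfl
    rw [h4, h2] at h1
    exact_mod_cast h1.symm
  have hdegΦ : charDegree (indFun U (fun _ => (1 : ℂ))) = U.index := by
    rw [Cfsg.Agent.Lib.Helper80.IndDeg.charDegree_indFun U _ Cfsg.Agent.Lib.CT.Ops.isCharacter_one,
      charDegree_of_apply_one rfl, mul_one]
  have hlin : ∀ φ : IrrCharacter G, mm φ ≠ 0 → φ ≠ triv →
      charDegree (φ : G → ℂ) < U.index := by
    intro φ hφ hφt
    have h1 : mm φ * charDegree (φ : G → ℂ) + mm triv * charDegree (triv : G → ℂ) ≤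
        ∑ ψ : IrrCharacter G, mm ψ * charDegree (ψ : G → ℂ) := by
      have h0 := Finset.sum_pair
        (f := fun ψ : IrrCharacter G => mm ψ * charDegree (ψ : G → ℂ)) hφt
      rw [← h0]
      exact Finset.sum_le_sum_of_subset (Finset.subset_univ _)
    rw [← hmm3, hdegΦ, hmtriv, hdtriv] at h1
    have h2 : charDegree (φ : G → ℂ) ≤ mm φ * charDegree (φ : G → ℂ) :=
      Nat.le_mul_of_pos_left _ (Nat.pos_of_ne_zero hφ)
    omega
  intro g hg
  apply Cfsg.Agent.S0175.mem_of_indFun_one_eq U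
  rw [hmm2 g, hmm2 1]
  refine Finset.sum_congr rfl fun φ _ => ?_
  by_cases hφ : mm φ = 0
  · rw [hφ]
    simp
  · by_cases hφt : φ = triv
    · rw [hφt]
    · rw [hlow φ (hlin φ hφ hφt) g hg]

/-- A monomial irreducible character is trivial on `[D, D]` if the irreducible characters of
smaller degree are trivial on the normal subgroup `D`. -/
theorem trivial_on_comm [Fintype G] (hM : Mono G) (χ : IrrCharacter G) (D : Subgroup G)
    [hD : D.Normal]
    (hlow : ∀ φ : IrrCharacter G, charDegree (φ : G → ℂ) < charDegree (χ : G → ℂ) →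
      ∀ g ∈ D, (φ : G → ℂ) g = (φ : G → ℂ) 1) :
    ∀ g ∈ (⁅D, D⁆ : Subgroup G), (χ : G → ℂ) g = (χ : G → ℂ) 1 := by
  classical
  obtain ⟨U, lam0, hlamc, hlam1, hχ⟩ := hM (χ : G → ℂ) χ.2
  obtain ⟨lam, hlam⟩ := exists_hom_of_isCharacter lam0 hlamc hlam1
  have hlam0 : lam0 = fun h => ((lam h : ℂˣ) : ℂ) := funext hlam
  haveI : Fintype U := Fintype.ofFinite U
  have hU : U.index = charDegree (χ : G → ℂ) := by
    have h1 := Cfsg.Agent.Lib.Helper80.IndDeg.charDegree_indFun U lam0 hlamc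
    rw [hχ, charDegree_of_apply_one hlam1, mul_one] at h1
    exact h1.symm
  have hDU : D ≤ U := le_of_lower_trivial U D (by rw [hU]; exact hlow)
  haveI : (⁅D, D⁆ : Subgroup G).Normal := Subgroup.commutator_normal _ _
  have hle : (⁅D, D⁆ : Subgroup G) ≤ (lam.ker).map U.subtype := by
    rw [Subgroup.commutator_le]
    intro g₁ hg₁ g₂ hg₂
    refine ⟨⁅(⟨g₁, hDU hg₁⟩ : U), ⟨g₂, hDU hg₂⟩⁆, ?_, rfl⟩
    apply Abelianization.commutator_subset_ker lam
    rw [commutator_def]
    exact Subgroup.commutator_mem_commutator (Subgroup.mem_top _) (Subgroup.mem_top _)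
  have hDH : ∀ n ∈ (⁅D, D⁆ : Subgroup G), ∃ hn : n ∈ U, lam ⟨n, hn⟩ = 1 := by
    intro n hn
    obtain ⟨x, hx, rfl⟩ := hle hn
    exact ⟨x.2, MonoidHom.mem_ker.1 hx⟩
  intro g hg
  rw [← hχ, hlam0]
  exact Cfsg.Agent.S0175.indFun_eq_of_normal U lam _ hDH hg

theorem tak3_aux [Fintype G] (m n : ℕ) (hmn : m ≤ n) (hcd : Deg3 G m n) (hM : Mono G) :
    derivedSeries G 3 = ⊥ := by
  classical
  haveI hn1 : (derivedSeries G 1).Normal := derivedSeries_normal G 1
  haveI hn2 : (derivedSeries G 2).Normal := derivedSeries_normal G 2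
  have h21 : derivedSeries G 2 ≤ derivedSeries G 1 := derivedSeries_antitone G (by norm_num)
  have h32 : derivedSeries G 3 ≤ derivedSeries G 2 := derivedSeries_antitone G (by norm_num)
  have s1 : ∀ χ : IrrCharacter G, charDegree (χ : G → ℂ) = 1 →
      ∀ g ∈ derivedSeries G 1, (χ : G → ℂ) g = (χ : G → ℂ) 1 := by
    intro χ h1 g hg
    exact apply_eq_one_of_mem_commutator χ h1 hg
  have s2 : ∀ χ : IrrCharacter G, charDegree (χ : G → ℂ) = m →
      ∀ g ∈ derivedSeries G 2, (χ : G → ℂ) g = (χ : G → ℂ) 1 := by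
    intro χ hm g hg
    have hg' : g ∈ (⁅derivedSeries G 1, derivedSeries G 1⁆ : Subgroup G) := hg
    refine trivial_on_comm hM χ (derivedSeries G 1) ?_ g hg'
    intro φ hφ g' hg'
    rcases hcd φ with h | h | h
    · exact s1 φ h g' hg'
    · omega
    · omega
  have s3 : ∀ χ : IrrCharacter G, charDegree (χ : G → ℂ) = n →
      ∀ g ∈ derivedSeries G 3, (χ : G → ℂ) g = (χ : G → ℂ) 1 := by
    intro χ hn g hg
    have hg' : g ∈ (⁅derivedSeries G 2, derivedSeries G 2⁆ : Subgroup G) := hg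
    refine trivial_on_comm hM χ (derivedSeries G 2) ?_ g hg'
    intro φ hφ g' hg'
    rcases hcd φ with h | h | h
    · exact s1 φ h g' (h21 hg')
    · exact s2 φ h g' hg'
    · omega
  rw [eq_bot_iff]
  intro g hg
  rw [Subgroup.mem_bot]
  have hkey : ∀ χ : IrrCharacter G, (χ : G → ℂ) g = (χ : G → ℂ) 1 := by
    intro χ
    rcases hcd χ with h | h | h
    · exact s1 χ h g (h21 (h32 hg))
    · exact s2 χ h g (h32 hg)
    · exact s3 χ h g hg
  exact isConj_one_left.1 (isConj_of_irr_eq _ _ hkey)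

theorem main : Tak3.{u} := by
  intro G _ _ m n hcd hM
  rcases le_total m n with h | h
  · exact tak3_aux m n h hcd hM
  · refine tak3_aux n m h (fun χ => ?_) hM
    rcases hcd χ with h | h | h
    exacts [Or.inl h, Or.inr (Or.inr h), Or.inr (Or.inl h)]

end Cfsg.Agent.Lib.Helper20.TC3TAK3
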