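import Mathlib
import Cfsg.Agent.Lib.Helper44.TPStmt
import Cfsg.Agent.Lib.Helper40.SSConj
import Cfsg.Agent.Lib.Helper40.PrimeFix
import Cfsg.Agent.S2568

/-!
# S5973 piece INVSUB

An invariant subspace `U` without fixed vectors of an element `x` of prime order `r ≠ p` contains
invariant subspaces of every finrank `i s ≤ finrank U`, `i = orderOf (q : ZMod r)`.

Induction on `s`: `x` is semisimple, so an invariant `U' ≤ U` has an invariant complement `C` in
`U`; a nonzero `v ∈ C` is killed by a monic irreducible factor `P ≠ X - 1` of `X ^ r - 1`, of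
degree `i`; the cyclic subspace of `v` has finrank `≤ i`, and `≥ i` by InvDim.
-/

set_option autoImplicit false

universe u

open scoped Matrix
open Polynomial UniqueFactorizationMonoid

namespace Cfsg.Agent.Lib.Helper20.TPINVSUB

open Cfsg.Agent.Lib.Helper44.TPStmt

section gen

variable {F : Type u} [Field F] {V : Type*} [AddCommGroup V] [Module F V]

/-- A `T`-invariant subspace is invariant under every polynomial in `T`. -/
theorem aeval_mem (T : V →ₗ[F] V) (C : Submodule F V) (hC : ∀ w ∈ C, T w ∈ C) (Q : F[X]) :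
    ∀ w ∈ C, (aeval T Q) w ∈ C := by
  intro w hw
  have h1 : ∀ n : ℕ, (T ^ n) w ∈ C := by
    intro n
    induction n with
    | zero => simpa using hw
    | succ n ih =>
      rw [pow_succ', Module.End.mul_apply]
      exact hC _ ih
  induction Q using Polynomial.induction_on' with
  | add p q hp hq =>
    rw [map_add, LinearMap.add_apply]
    exact C.add_mem hp hq
  | monomial n a =>
    rw [← C_mul_X_pow_eq_monomial, map_mul, aeval_C, map_pow, aeval_X, Module.End.mul_apply,
      Module.algebraMap_end_apply]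
    exact C.smul_mem a (h1 n)

/-- If a product of polynomials in `T` kills a nonzero vector of the invariant subspace `C`, one
of the factors kills a nonzero vector of `C`. -/
theorem exists_factor_ker (T : V →ₗ[F] V) (C : Submodule F V) (hC : ∀ w ∈ C, T w ∈ C)
    (M : Multiset F[X]) : ∀ w ∈ C, w ≠ 0 → (aeval T M.prod) w = 0 →
    ∃ P ∈ M, ∃ v ∈ C, v ≠ 0 ∧ (aeval T P) v = 0 := by
  induction M using Multiset.induction_on with
  | empty =>
    intro w hw hw0 h
    rw [Multiset.prod_zero, map_one, Module.End.one_apply] at h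
    exact absurd h hw0
  | cons P M ih =>
    intro w hw hw0 h
    rw [Multiset.prod_cons, map_mul, Module.End.mul_apply] at h
    by_cases h' : (aeval T M.prod) w = 0
    · obtain ⟨P', hP', v, hv, hv0, hPv⟩ := ih w hw hw0 h'
      exact ⟨P', Multiset.mem_cons_of_mem hP', v, hv, hv0, hPv⟩
    · exact ⟨P, Multiset.mem_cons_self P M, _, aeval_mem T C hC M.prod w hw, h', h⟩

/-- The cyclic subspace of a vector killed by a monic polynomial `P`. -/
theorem exists_cyclic (T : V →ₗ[F] V) (C : Submodule F V) (hC : ∀ w ∈ C, T w ∈ C)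
    (P : F[X]) (hP : P.Monic) (hdeg : 0 < P.natDegree) (v : V) (hv : v ∈ C)
    (hPv : (aeval T P) v = 0) :
    ∃ D : Submodule F V, D ≤ C ∧ (∀ w ∈ D, T w ∈ D) ∧ v ∈ D ∧
      Module.finrank F D ≤ P.natDegree := by
  let ev : F[X] →ₗ[F] V :=
    (LinearMap.applyₗ v : (V →ₗ[F] V) →ₗ[F] V) ∘ₗ (aeval T).toLinearMap
  have hev : ∀ Q, ev Q = (aeval T Q) v := fun Q => rfl
  have hmod : ∀ Q : F[X], (aeval T Q) v = (aeval T (Q %ₘ P)) v := by
    intro Q
    have h1 : Q = Q %ₘ P + (Q /ₘ P) * P := by
      rw [mul_comm]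
      exact (Polynomial.modByMonic_add_div Q P).symm
    conv_lhs => rw [h1]
    rw [map_add, LinearMap.add_apply, map_mul, Module.End.mul_apply, hPv, map_zero, add_zero]
  have hPdeg : P.degree = (P.natDegree : WithBot ℕ) := Polynomial.degree_eq_natDegree hP.ne_zero
  have : Module.Finite F (Polynomial.degreeLT F P.natDegree) :=
    Module.Finite.equiv (Polynomial.degreeLTEquiv F P.natDegree).symm
  refine ⟨(Polynomial.degreeLT F P.natDegree).map ev, ?_, ?_, ?_, ?_⟩
  · rintro _ ⟨Q, -, rfl⟩
    rw [hev]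
    exact aeval_mem T C hC Q v hv
  · rintro _ ⟨Q, -, rfl⟩
    refine ⟨(X * Q) %ₘ P, ?_, ?_⟩
    · rw [SetLike.mem_coe, Polynomial.mem_degreeLT, ← hPdeg]
      exact Polynomial.degree_modByMonic_lt _ hP
    · rw [hev, hev, ← hmod, map_mul, aeval_X, Module.End.mul_apply]
  · refine ⟨1, ?_, ?_⟩
    · rw [SetLike.mem_coe, Polynomial.mem_degreeLT, Polynomial.degree_one]
      exact_mod_cast hdeg
    · rw [hev, map_one, Module.End.one_apply]
  · exact (Submodule.finrank_map_le ev _).trans (le_of_eq
      ((LinearEquiv.finrank_eq (Polynomial.degreeLTEquiv F P.natDegree)).trans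
        (Module.finrank_fin_fun F)))

end gen

theorem main : InvDim.{u} → InvSub.{u} := by
  intro hID F _ _ p _ _ d r _ hrp x hxr U hU hUF s hs
  classical
  obtain ⟨i, hi⟩ : ∃ i, i = orderOf ((Fintype.card F : ℕ) : ZMod r) := ⟨_, rfl⟩
  rw [← hi] at hs ⊢
  obtain ⟨T, hT⟩ : ∃ T : (J d → F) →ₗ[F] (J d → F),
      T = Matrix.toLin' (x : Matrix (J d) (J d) F) := ⟨_, rfl⟩
  have hr : r.Prime := Fact.out
  have hr0 : (r : F) ≠ 0 := Cfsg.Agent.Lib.Helper40.PrimeFix.cast_ne_zero' (p := p) r hrp
  have hxr' : (x : Matrix (J d) (J d) F) ^ r = 1 := by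
    have h1 := congrArg (fun y : Matrix.GeneralLinearGroup (J d) F =>
      (y : Matrix (J d) (J d) F)) hxr
    simpa using h1
  have hss : Module.End.IsSemisimple T := by
    rw [hT]
    exact Cfsg.Agent.Lib.Helper40.SSConj.isSemisimple_toLin' _ r hr0 hxr'
  have hTr : T ^ r = 1 := by
    have h2 := congrArg (Matrix.toLinAlgEquiv' (R := F) (n := J d)) hxr'
    rw [map_pow, map_one] at h2
    rw [hT]
    exact h2
  obtain ⟨t, ht⟩ := Cfsg.Agent.Lib.Helper40.PrimeFix.order_dvd (F := F) (p := p) r hrp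
  rw [← hi] at ht
  obtain ⟨S, -, -, hS, hdiv⟩ := Cfsg.Agent.S2568.cyclo_facts (F := F) (p := p) r i t hr hrp hi
    (by rw [ht, mul_comm])
  have hipos : 0 < i := by
    have h2 : 2 ≤ r := hr.two_le
    rcases Nat.eq_zero_or_pos i with h | h
    · rw [h, zero_mul] at ht
      omega
    · exact h
  -- invariance in pointwise form
  have hstab : ∀ W : Submodule F (J d → F), (∀ w ∈ W, T w ∈ W) →
      Stab (x : Matrix (J d) (J d) F) W := by
    intro W hW
    show W.map (Matrix.toLin' (x : Matrix (J d) (J d) F)) ≤ W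
    rw [← hT]
    rintro _ ⟨w, hw, rfl⟩
    exact hW w hw
  have hUinv : ∀ w ∈ U, T w ∈ U := by
    intro w hw
    rw [hT]
    exact hU (Submodule.mem_map_of_mem hw)
  have hIDi : ∀ D : Submodule F (J d → F), (∀ w ∈ D, T w ∈ D) → D ≤ U →
      i ∣ Module.finrank F ↥D := by
    intro D h1 h2
    rw [hi]
    refine hID F p d r hrp x hxr D (hstab D h1) ?_
    rw [eq_bot_iff, ← hUF]
    exact inf_le_inf_right _ h2
  -- a minimal invariant subspace inside an invariant subspace of `U`
  have key : ∀ Cs : Submodule F (J d → F), (∀ w ∈ Cs, T w ∈ Cs) → Cs ≤ U → Cs ≠ ⊥ →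
      ∃ D : Submodule F (J d → F), D ≤ Cs ∧ (∀ w ∈ D, T w ∈ D) ∧ Module.finrank F ↥D = i := by
    intro Cs hC hCU hC0
    obtain ⟨w, hw, hw0⟩ := Submodule.exists_mem_ne_zero_of_ne_bot hC0
    have hf : (X ^ r - C (1 : F) : F[X]).Monic := Polynomial.monic_X_pow_sub_C (1 : F) hr.ne_zero
    have hkill : (aeval T (normalizedFactors (X ^ r - C (1 : F) : F[X])).prod) w = 0 := by
      rw [Cfsg.Agent.S2568.prod_nf _ hf, map_sub, map_pow, aeval_X, aeval_C, map_one, hTr,
        sub_self, LinearMap.zero_apply]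
    obtain ⟨P, hP, v, hv, hv0, hPv⟩ := exists_factor_ker T Cs hC _ w hw hw0 hkill
    have hPirr : Irreducible P := irreducible_of_normalized_factor P hP
    have hPmon : P.Monic := Cfsg.Agent.S2568.monic_of_mem_nf _ P hP
    have hPdvd : P ∣ X ^ r - C (1 : F) := dvd_of_mem_normalizedFactors hP
    rcases (hdiv P hPirr hPmon).mp hPdvd with h1 | h1
    · exfalso
      apply hv0
      have hvF : v ∈ U ⊓ Fx (x : Matrix (J d) (J d) F) := by
        refine ⟨hCU hv, ?_⟩
        show v ∈ LinearMap.ker (Matrix.toLin' (x : Matrix (J d) (J d) F) - LinearMap.id)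
        rw [← hT, LinearMap.mem_ker]
        rw [h1, map_sub, aeval_X, aeval_C, map_one] at hPv
        exact hPv
      rw [hUF] at hvF
      exact (Submodule.mem_bot F).mp hvF
    · have hdeg : P.natDegree = i := (hS P h1).2.2
      obtain ⟨D, hDC, hDinv, hvD, hDfin⟩ :=
        exists_cyclic T Cs hC P hPmon (by rw [hdeg]; exact hipos) v hv hPv
      refine ⟨D, hDC, hDinv, ?_⟩
      have hdvd := hIDi D hDinv (hDC.trans hCU)
      have hD0 : D ≠ ⊥ := by
        intro h
        rw [h] at hvD
        exact hv0 ((Submodule.mem_bot F).mp hvD)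
      have hpos : 1 ≤ Module.finrank F ↥D := Submodule.one_le_finrank_iff.mpr hD0
      rw [hdeg] at hDfin
      exact Nat.le_antisymm hDfin (Nat.le_of_dvd hpos hdvd)
  -- induction on `s`
  have ind : ∀ s : ℕ, i * s ≤ Module.finrank F ↥U →
      ∃ U' : Submodule F (J d → F), U' ≤ U ∧ (∀ w ∈ U', T w ∈ U') ∧
        Module.finrank F ↥U' = i * s := by
    intro s
    induction s with
    | zero =>
      intro _
      refine ⟨⊥, bot_le, ?_, by simp⟩
      intro w hw
      rw [Submodule.mem_bot] at hw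
      rw [hw, map_zero]
      exact Submodule.zero_mem _
    | succ s ih =>
      intro hs'
      rw [Nat.mul_succ] at hs'
      obtain ⟨U', hU'U, hU'inv, hU'fin⟩ := ih (by omega)
      have hU'mem : U' ∈ Module.End.invtSubmodule T := by
        rw [Module.End.mem_invtSubmodule]
        intro w hw
        exact hU'inv w hw
      obtain ⟨q, hq, hcompl⟩ := (Module.End.isSemisimple_iff.mp hss) U' hU'mem
      rw [Module.End.mem_invtSubmodule] at hq
      have hCinv : ∀ w ∈ q ⊓ U, T w ∈ q ⊓ U := by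
        intro w hw
        exact ⟨hq hw.1, hUinv w hw.2⟩
      have hinf : U' ⊓ (q ⊓ U) = ⊥ := by
        rw [eq_bot_iff, ← hcompl.inf_eq_bot]
        exact inf_le_inf_left _ inf_le_left
      have hsup : U' ⊔ (q ⊓ U) = U := by
        rw [← sup_inf_assoc_of_le q hU'U, hcompl.sup_eq_top, top_inf_eq]
      have hfr := Submodule.finrank_sup_add_finrank_inf_eq U' (q ⊓ U)
      rw [hsup, hinf, finrank_bot, hU'fin] at hfr
      have hC0 : q ⊓ U ≠ ⊥ := by
        intro h
        rw [h, finrank_bot] at hfr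
        omega
      obtain ⟨D, hDC, hDinv, hDfin⟩ := key (q ⊓ U) hCinv inf_le_right hC0
      refine ⟨U' ⊔ D, sup_le hU'U (hDC.trans inf_le_right), ?_, ?_⟩
      · intro w hw
        obtain ⟨a, ha, b, hb, rfl⟩ := Submodule.mem_sup.mp hw
        rw [map_add]
        exact Submodule.add_mem _ (Submodule.mem_sup_left (hU'inv a ha))
          (Submodule.mem_sup_right (hDinv b hb))
      · have hinf2 : U' ⊓ D = ⊥ := by
          rw [eq_bot_iff, ← hinf]
          exact inf_le_inf_left _ hDC
        have hfr2 := Submodule.finrank_sup_add_finrank_inf_eq U' D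
        rw [hinf2, finrank_bot, hU'fin, hDfin] at hfr2
        rw [Nat.mul_succ]
        omega
  obtain ⟨U', h1, h2, h3⟩ := ind s hs
  exact ⟨U', h1, hstab U' h2, h3⟩

end Cfsg.Agent.Lib.Helper20.TPINVSUB
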