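import Mathlib
import Cfsg.Agent.Lib.Helper44.TPStmt

/-!
# S5973 piece SQNEG3

`q ≡ 3 (4)`, `x^2 = -1`: by induction (SqNegTS) there are invariant totally singular subspaces of
every finrank `2 s ≤ d + 1`.  For `d` odd the finrank `d + 1` contradicts TsHalf in `⊤`; for `m`
even take `s = m / 2`.
-/

set_option autoImplicit false

universe u

namespace Cfsg.Agent.Lib.Helper20.TPSQNEG3

open Cfsg.Agent.Lib.Helper44.TPStmt
open Cfsg.Agent.Lib.Helper37.HypStmt (cc IPos)
open Cfsg.Agent.Lib.Helper44.TSStmt (Fac NumTypes)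

theorem main : Top.{u} → TsHalf.{u} → SqNegTS.{u} → SqNeg3.{u} := by
  intro hTop hHalf hTS F _ _ hq d m hmd hpar x hx hx2
  have key : ∀ s : ℕ, 2 * s ≤ d + 1 → ∃ W : Submodule F (J d → F),
      Stab (x : Matrix (J d) (J d) F) W ∧ TSub d F W ∧ Module.finrank F ↥W = 2 * s := by
    intro s
    induction s with
    | zero =>
      intro _
      refine ⟨⊥, ?_, ?_, ?_⟩
      · unfold Stab
        simp
      · intro w hw
        rw [Submodule.mem_bot] at hw
        subst hw
        simp [Cfsg.quadFormPlus]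
      · simp
    | succ s ih =>
      intro hs
      obtain ⟨W, hW1, hW2, hW3⟩ := ih (by omega)
      obtain ⟨W', hW1', hW2', hW3'⟩ := hTS F hq d x hx hx2 W hW1 hW2 (by omega)
      exact ⟨W', hW1', hW2', by omega⟩
  by_cases hd : Odd d
  · exfalso
    obtain ⟨k, hk⟩ := hd
    obtain ⟨W, hW1, hW2, hW3⟩ := key (k + 1) (by omega)
    have h1 := hHalf F d ⊤ W (hTop F d).1 le_top hW2
    have h2 : Module.finrank F ↥(⊤ : Submodule F (J d → F)) = 2 * d := by
      rw [finrank_top, Module.finrank_fintype_fun_eq_card]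
      simp only [J, Fintype.card_sum, Fintype.card_fin]
      ring
    omega
  · have hm : Even m := by
      rcases hpar with h | h
      · exact h
      · exact absurd h hd
    obtain ⟨k, hk⟩ := hm
    obtain ⟨W, hW1, hW2, hW3⟩ := key k (by omega)
    exact ⟨W, by omega, hW2, hW1⟩

end Cfsg.Agent.Lib.Helper20.TPSQNEG3
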