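import Mathlib
import Cfsg.Agent.Lib.Helper74.WinStmt
import Cfsg.Agent.Lib.Helper3.TDBasic
import Cfsg.Agent.Lib.Helper80.Restrict
import Cfsg.Agent.Lib.CT.Kernel

/-!
# S4467 (Winter), piece R1: descent to the sections `N ⧸ K` of a normal subgroup `N` with a
non-normal Sylow `p`-subgroup.
-/

set_option autoImplicit false

namespace Cfsg.Agent.Lib.Helper20.WinR1

open Cfsg Cfsg.Agent.Lib.Helper74

universe u

/-- elements of a `p`-subgroup of a group with at most `n` elements are killed by `p ^ n` -/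
theorem pow_eq_one_of_mem {H : Type u} [Group H] [Finite H] {p : ℕ} (hp : p.Prime) (n : ℕ)
    (hn : Nat.card H ≤ n) (P : Subgroup H) (hP : IsPGroup p P) {g : H} (hg : g ∈ P) :
    g ^ (p ^ n) = 1 := by
  obtain ⟨k, hk⟩ := hP ⟨g, hg⟩
  have hk' : g ^ (p ^ k) = 1 := by
    have := congrArg Subtype.val hk
    simpa using this
  obtain ⟨j, hj, hjo⟩ := (Nat.dvd_prime_pow hp).mp (orderOf_dvd_of_pow_eq_one hk')
  have hle : orderOf g ≤ Nat.card H := orderOf_le_card
  have hjn : j ≤ n := by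
    have h1 : p ^ j ≤ n := by rw [← hjo]; exact hle.trans hn
    have h2 : j < p ^ j := Nat.lt_pow_self hp.one_lt
    omega
  rw [← orderOf_dvd_iff_pow_eq_one, hjo]
  exact pow_dvd_pow p hjn

theorem main : WinStmt.R1.{u} := by
  intro G _ _ χ hfaith p hp N hN hQ hWin
  classical
  haveI := hN
  haveI : Fact p.Prime := ⟨hp⟩
  haveI : Fintype G := Fintype.ofFinite G
  haveI : Fintype ↥N := Fintype.ofFinite _
  haveI : Finite (IrrCharacter ↥N) := Cfsg.Agent.Lib.CT.Wedderburn.finite_irrCharacter ↥N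
  haveI : Fintype (IrrCharacter ↥N) := Fintype.ofFinite _
  have hΦ : IsCharacter ↥N (fun n : ↥N => (χ : G → ℂ) n) :=
    Cfsg.Agent.Lib.CT.Ops.isCharacter_restrict N
      (Cfsg.Agent.Lib.CT.Wedderburn.isCharacter_of_irr χ.2)
  obtain ⟨m, hm, hexp, -, -⟩ := Cfsg.Agent.Lib.Helper80.Restrict.exists_mult hΦ
  by_cases hcase : ∃ θ : IrrCharacter ↥N, m θ ≠ 0 ∧ ∃ (K : Subgroup ↥N) (_ : K.Normal),
      (∀ g, g ∈ K ↔ (θ : ↥N → ℂ) g = (θ : ↥N → ℂ) 1) ∧
        ∃ Q : Sylow p (↥N ⧸ K), ¬ (Q : Subgroup (↥N ⧸ K)).Normal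
  · obtain ⟨θ, hmθ, K, hK, hKmem, hQK⟩ := hcase
    haveI := hK
    have hcon : classInner (fun n : ↥N => (χ : G → ℂ) n) (θ : ↥N → ℂ) ≠ 0 := by
      rw [hm θ]; exact_mod_cast hmθ
    have hdeg := (Cfsg.Agent.Lib.Helper3.TDBasic.deg_of_constituent N θ χ hcon).1
    obtain ⟨θbar, hθbar, hθval⟩ := Cfsg.Agent.Lib.CT.Kernel.exists_quotient_irr K θ.2
      (fun n hn => (hKmem n).mp hn)
    have h1' : θbar (1 : ↥N ⧸ K) = (θ : ↥N → ℂ) 1 := hθval 1
    have hfb : WinStmt.Faithful θbar := by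
      intro x hx
      obtain ⟨g, rfl⟩ := QuotientGroup.mk_surjective x
      rw [hθval g, h1'] at hx
      exact (QuotientGroup.eq_one_iff g).mpr ((hKmem g).mpr hx)
    have hgood := hWin K ⟨θbar, hθbar⟩ hfb hQK
    have hdegeq : charDegree θbar = charDegree (θ : ↥N → ℂ) := by
      have e1 := Cfsg.Agent.Lib.Helper80.Integrality.apply_one_eq_charDegree
        (Cfsg.Agent.Lib.CT.Wedderburn.isCharacter_of_irr hθbar)
      have e2 := Cfsg.Agent.Lib.Helper80.Integrality.apply_one_eq_charDegree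
        (Cfsg.Agent.Lib.CT.Wedderburn.isCharacter_of_irr θ.2)
      have h2 := h1'
      rw [e1, e2] at h2
      exact_mod_cast h2
    obtain ⟨q, hq, hqd, hqm⟩ := hgood
    refine ⟨q, hq, ?_, hqm⟩
    have hqd' : q ∣ charDegree θbar := hqd
    rw [hdegeq] at hqd'
    exact hqd'.trans hdeg
  · exfalso
    push_neg at hcase
    obtain ⟨Q, hQn⟩ := hQ
    apply hQn
    -- the elements killed by `p ^ |N|` are closed under products
    have hmul : ∀ x y : ↥N, x ^ (p ^ Nat.card ↥N) = 1 → y ^ (p ^ Nat.card ↥N) = 1 →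
        (x * y) ^ (p ^ Nat.card ↥N) = 1 := by
      intro x y hx hy
      have hθ : ∀ θ : IrrCharacter ↥N, m θ ≠ 0 →
          (θ : ↥N → ℂ) ((x * y) ^ (p ^ Nat.card ↥N)) = (θ : ↥N → ℂ) 1 := by
        intro θ hmθ
        obtain ⟨K, hK, hKmem⟩ := Cfsg.Agent.Lib.CT.Kernel.exists_normal_ker
          (Cfsg.Agent.Lib.CT.Wedderburn.isCharacter_of_irr θ.2)
        haveI := hK
        have hall := hcase θ hmθ K hK hKmem
        have hpg : ∀ a : ↥N, a ^ (p ^ Nat.card ↥N) = 1 →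
            IsPGroup p (Subgroup.zpowers (QuotientGroup.mk a : ↥N ⧸ K)) := by
          rintro a ha ⟨g, hg⟩
          obtain ⟨i, rfl⟩ := Subgroup.mem_zpowers_iff.mp hg
          refine ⟨Nat.card ↥N, Subtype.ext ?_⟩
          show ((QuotientGroup.mk a : ↥N ⧸ K) ^ i) ^ (p ^ Nat.card ↥N) = 1
          rw [← zpow_natCast, ← zpow_mul, mul_comm, zpow_mul, zpow_natCast,
            ← QuotientGroup.mk_pow, ha, QuotientGroup.mk_one, one_zpow]
        obtain ⟨P1, hP1⟩ := (hpg x hx).exists_le_sylow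
        obtain ⟨P2, hP2⟩ := (hpg y hy).exists_le_sylow
        haveI := hall P1
        have h12 : (P1 : Subgroup (↥N ⧸ K)) ≤ P2 := P1.isPGroup'.le_sylow_of_normal P2
        have hx2 : (QuotientGroup.mk x : ↥N ⧸ K) ∈ (P2 : Subgroup (↥N ⧸ K)) :=
          h12 (hP1 (Subgroup.mem_zpowers _))
        have hy2 : (QuotientGroup.mk y : ↥N ⧸ K) ∈ (P2 : Subgroup (↥N ⧸ K)) :=
          hP2 (Subgroup.mem_zpowers _)
        have hcardle : Nat.card (↥N ⧸ K) ≤ Nat.card ↥N :=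
          Nat.card_le_card_of_surjective _ (QuotientGroup.mk_surjective (s := K))
        have hxy : ((QuotientGroup.mk x : ↥N ⧸ K) * QuotientGroup.mk y) ^ (p ^ Nat.card ↥N) = 1 :=
          pow_eq_one_of_mem hp _ hcardle P2 P2.isPGroup' (mul_mem hx2 hy2)
        rw [← QuotientGroup.mk_mul, ← QuotientGroup.mk_pow, QuotientGroup.eq_one_iff] at hxy
        exact (hKmem _).mp hxy
      have e1 : (χ : G → ℂ) (((x * y) ^ (p ^ Nat.card ↥N) : ↥N) : G) =
          ∑ ψ : IrrCharacter ↥N, (m ψ : ℂ) * (ψ : ↥N → ℂ) ((x * y) ^ (p ^ Nat.card ↥N)) :=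
        hexp ((x * y) ^ (p ^ Nat.card ↥N))
      have e2 : (χ : G → ℂ) ((1 : ↥N) : G) =
          ∑ ψ : IrrCharacter ↥N, (m ψ : ℂ) * (ψ : ↥N → ℂ) 1 := hexp 1
      have hval : (χ : G → ℂ) (((x * y) ^ (p ^ Nat.card ↥N) : ↥N) : G) =
          (χ : G → ℂ) ((1 : ↥N) : G) := by
        rw [e1, e2]
        apply Finset.sum_congr rfl
        intro θ _
        by_cases hmθ : m θ = 0
        · rw [hmθ]; simp
        · rw [hθ θ hmθ]
      rw [Subgroup.coe_one] at hval
      have h1 := hfaith _ hval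
      exact Subtype.ext h1
    let O : Subgroup ↥N :=
      { carrier := {g | g ^ (p ^ Nat.card ↥N) = 1}
        mul_mem' := fun {a b} ha hb => hmul a b ha hb
        one_mem' := one_pow _
        inv_mem' := fun {a} ha => by
          show a⁻¹ ^ (p ^ Nat.card ↥N) = 1
          rw [inv_pow, show a ^ (p ^ Nat.card ↥N) = 1 from ha, inv_one] }
    have hOp : IsPGroup p O := fun g => ⟨Nat.card ↥N, Subtype.ext g.2⟩
    have hON : O.Normal := ⟨fun g hg n => by
      show (n * g * n⁻¹) ^ (p ^ Nat.card ↥N) = 1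
      rw [conj_pow, show g ^ (p ^ Nat.card ↥N) = 1 from hg, mul_one, mul_inv_cancel]⟩
    have hQO : (Q : Subgroup ↥N) ≤ O := fun g hg =>
      pow_eq_one_of_mem hp _ le_rfl Q Q.isPGroup' hg
    have hOQ := Q.is_maximal' hOp hQO
    rw [← hOQ]; exact hON

end Cfsg.Agent.Lib.Helper20.WinR1
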